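import Mathlib
import Cfsg.Agent.Lib.Tits.ModS
import Cfsg.Agent.S0247

set_option autoImplicit false

open scoped commutatorElement

namespace FS4

open Tits H63.St Cfsg

/-- A model of rank two with parameters `a`, `b`. -/
def Md (a b : ℕ) : Prop :=
  ∃ (Φ G : Type) (_ : Finite Φ) (_ : Group G) (_ : Finite G) (R : Roots Φ (Fin 2)) (E : RGD R G)
    (j k : Fin 2), cm R = mB 2 ∧ Good E ∧ E.Gp = ⊤ ∧
    (IsSimpleGroup (G ⧸ Subgroup.center G) → Lie (G ⧸ Subgroup.center G)) ∧
    j ≠ k ∧ q E j = a ∧ q E k = b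

theorem Md.symm {a b : ℕ} (h : Md a b) : Md b a := by
  obtain ⟨Φ, G, _, _, _, R, E, j, k, c1, c2, c3, c4, c5, c6, c7⟩ := h
  exact ⟨Φ, G, inferInstance, inferInstance, inferInstance, R, E, k, j, c1, c2, c3, c4, c5.symm, c7, c6⟩

theorem not_simple {H : Type*} [Group H] (e : H ≃* Equiv.Perm (Fin 6)) :
    ¬ IsSimpleGroup (H ⧸ Subgroup.center H) := fun hs => by
  have hZ : ∀ z ∈ Subgroup.center H, e z = 1 := fun z hz => by
    have : e z ∈ Subgroup.center (Equiv.Perm (Fin 6)) := Subgroup.mem_center_iff.2 fun g => by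
      obtain ⟨g, rfl⟩ := e.surjective g
      rw [← map_mul, ← map_mul, Subgroup.mem_center_iff.1 hz]
    have k : ∀ i j : Fin 6, e z (Equiv.swap i j i) = Equiv.swap i j (e z i) := fun i j =>
      (congrArg (fun g : Equiv.Perm (Fin 6) => g i) (Subgroup.mem_center_iff.1 this (Equiv.swap i j))).symm
    ext i
    by_contra o
    obtain ⟨j, h1, h2⟩ := (by decide : ∀ i c : Fin 6, ∃ j : Fin 6, j ≠ i ∧ j ≠ c) i (e z i)
    have h3 : e z i ≠ i := fun h => o (by rw [h]; rfl)
    have := k i j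
    rw [Equiv.swap_apply_left, Equiv.swap_apply_of_ne_of_ne h3 h2.symm] at this
    exact h1 ((e z).injective this)
  let f : H ⧸ Subgroup.center H →* ℤˣ :=
    QuotientGroup.lift _ (Equiv.Perm.sign.comp e.toMonoidHom) fun z hz => by
      rw [MonoidHom.mem_ker, MonoidHom.comp_apply, MulEquiv.coe_toMonoidHom, hZ z hz, map_one]
  have hf : ∀ g : Equiv.Perm (Fin 6), f (e.symm g : H) = Equiv.Perm.sign g := fun g => by simp [f]
  rcases f.normal_ker.eq_bot_or_eq_top with h | h
  · have h1 : ((e.symm (Equiv.swap 0 1 * Equiv.swap 2 3) : H) : H ⧸ Subgroup.center H) ∈ f.ker := by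
      rw [MonoidHom.mem_ker, hf]; decide
    rw [h, Subgroup.mem_bot, QuotientGroup.eq_one_iff] at h1
    have := hZ _ h1
    rw [e.apply_symm_apply] at this
    exact absurd this (by decide)
  · have h1 : ((e.symm (Equiv.swap 0 1) : H) : H ⧸ Subgroup.center H) ∈ f.ker := h ▸ Subgroup.mem_top _
    rw [MonoidHom.mem_ker, hf] at h1
    exact absurd h1 (by decide)

theorem md_Sp (K : Type) [Field K] [Fintype K] : Md (Fintype.card K) (Fintype.card K) := by
  have H := (Sp.A 1 K).hyp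
  refine ⟨_, _, inferInstance, inferInstance, inferInstance, _, H.rgd, 0, 1, cm_VB 1 le_rfl _,
    eich_good H (by simp), H.top (Sp.gen _ _) (by simp), fun hs => ?_, by decide,
    eich_q H _ (fun _ => by decide),
    (eich_q_last H).trans ((ModS.card_SNA (Sp.A 1 K)).trans Nat.card_eq_fintype_card)⟩
  refine Or.inr (Or.inl ⟨K, _, inferInstance, 2, le_rfl, fun _ => ?_, ⟨MulEquiv.refl _⟩⟩)
  by_contra k
  have h2 : Fintype.card K = 2 := by have := Fintype.one_lt_card (α := K); omega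
  obtain ⟨e⟩ := Cfsg.Agent.S0247.result h2
  exact not_simple e hs

theorem md_U0 (K : Type) [Field K] [Fintype K] {r : ℕ} (hK : Fintype.card K = r ^ 2) :
    Md (r ^ 2) r := by
  have : H11.U.IsSq K r := ⟨hK⟩
  let A := SU.A K r (SU.ιe (n := 1 + 1 + (1 + 1)) (m := 1) rfl)
  have H := A.hyp
  exact ⟨_, _, inferInstance, inferInstance, inferInstance, _, H.rgd, 0, 1, cm_VB 1 le_rfl _,
    eich_good H (by simp), H.top (SU.gen _ _ _ (by omega)) (by simp),
    fun _ => Or.inr (Or.inr (Or.inl ⟨K, _, inferInstance, _, r, hK, by omega, by omega,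
      ⟨MulEquiv.refl _⟩⟩)), by decide,
    (eich_q H _ (fun _ => by decide)).trans hK,
    (eich_q_last H).trans ((ModS.card_SNA A).trans H11.U.card_fixedField)⟩

theorem md_U1 (K : Type) [Field K] [Fintype K] {r : ℕ} (hK : Fintype.card K = r ^ 2) :
    Md (r ^ 2) (r ^ 3) := by
  have : H11.U.IsSq K r := ⟨hK⟩
  let A := SU.C K r (SU.ιo (n := 1 + 1 + (1 + 1) + 1) (m := 1) rfl)
  have H := A.hyp
  exact ⟨_, _, inferInstance, inferInstance, inferInstance, _, H.rgd, 0, 1, cm_VB 1 le_rfl _,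
    eich_good H (by simp), H.top (SU.gen _ _ _ (by omega)) (by simp),
    fun _ => Or.inr (Or.inr (Or.inl ⟨K, _, inferInstance, _, r, hK, by omega, by omega,
      ⟨MulEquiv.refl _⟩⟩)), by decide,
    (eich_q H _ (fun _ => by decide)).trans hK,
    (eich_q_last H).trans (ModS.card_SNC A)⟩

theorem md (K : Type) [Field K] [Fintype K] {t : ℕ}
    (h : t = Fintype.card K ∨ t = Fintype.card K ^ 2 ∨ t ^ 2 = Fintype.card K ^ 3) :
    Md (Fintype.card K) t := by
  rcases h with rfl | rfl | h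
  · exact md_Sp K
  · obtain ⟨p, hp, n, hn, e⟩ : ∃ p : ℕ, p.Prime ∧ ∃ n : ℕ, n ≠ 0 ∧ Fintype.card K = p ^ n := by
      obtain ⟨p, _, n, hp, e⟩ := FiniteField.card' K
      exact ⟨p, hp, n, n.ne_zero, e⟩
    have := Fact.mk hp
    have := Fintype.ofFinite (GaloisField p (n * 2))
    exact (md_U0 (GaloisField p (n * 2)) (by
      rw [← Nat.card_eq_fintype_card, GaloisField.card p _ (by omega), e, pow_mul])).symm
  · have h0 : Fintype.card K ≠ 0 := Fintype.card_ne_zero
    obtain ⟨r, rfl⟩ : Fintype.card K ∣ t := by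
      rw [← Nat.pow_dvd_pow_iff (n := 2) (by decide), h]
      exact pow_dvd_pow _ (by decide)
    have e : Fintype.card K = r ^ 2 :=
      (mul_left_cancel₀ (pow_ne_zero 2 h0) (by linear_combination h)).symm
    have := md_U1 K e
    rwa [← e, show r ^ 3 = Fintype.card K * r by rw [e]; ring] at this

end FS4
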