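import Mathlib
import Cfsg.Agent.Lib.Tits.NB0

/-! Finite Moufang quadrangles: definitions (blueprint/FS4). -/

set_option autoImplicit false

open scoped commutatorElement

namespace FS4

open Tits

variable {G : Type*} [Group G]

/-- `m` induces the reflection in the root `i`. -/
def Rf (W : Win G) (i : ZMod 8) (m : G) : Prop :=
  ∀ j y, y ∈ W.U j ↔ m * y * m⁻¹ ∈ W.U (2 * i + 4 - j)

/-- `g` normalises all root groups. -/
def Tor (W : Win G) (g : G) : Prop := ∀ j y, y ∈ W.U j ↔ g * y * g⁻¹ ∈ W.U j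

/-- The group `V₂ = [U₁, U₃]`. -/
def V (W : Win G) : Subgroup G := ⁅W.U 1, W.U 3⁆

/-- `U₁` and `U₃` commute. -/
def Fl (W : Win G) : Prop := ∀ a ∈ W.U 1, ∀ c ∈ W.U 3, Commute a c

/-- `U₂` and `U₄` commute. -/
def Fl' (W : Win G) : Prop := ∀ b ∈ W.U 2, ∀ u ∈ W.U 4, Commute b u

/-- `V₂` is a proper subgroup of `U₂`. -/
def Big (W : Win G) : Prop := ¬ W.U 2 ≤ V W

open Classical in
/-- The two components of a commutator of `U₁` and `U₄`. -/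
noncomputable def pq (W : Win G) (a u : G) : G × G :=
  if h : ∃ p : G × G, p.1 ∈ W.U 2 ∧ p.2 ∈ W.U 3 ∧ ⁅a, u⁆ = p.1 * p.2 then h.choose else 1

/-- The `U₂` component. -/
noncomputable def φ (W : Win G) (a u : G) : G := (pq W a u).1

/-- The `U₃` component. -/
noncomputable def Q (W : Win G) (a u : G) : G := (pq W a u).2

/-- `U₁` is the field `K`, acting on `U₄ / V₄`. -/
structure Fld (W : Win G) {K : Type*} [Field K] (x : K → G) : Prop where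
  add : ∀ s t, x (s + t) = x s * x t
  inj : Function.Injective x
  rng : Set.range x = (W.U 1 : Set G)
  mul : ∀ s t, ∀ u ∈ W.U 4, ∀ u' ∈ W.U 4, φ W (x 1) u' = φ W (x t) u →
    (φ W (x s) u')⁻¹ * φ W (x (s * t)) u ∈ V W

/-- Coordinates. -/
structure Co (W : Win G) (K : Type*) [Field K] where
  /-- `U₁` -/
  x : K → G
  /-- `U₃` -/
  z : K → G
  /-- `U₂` -/
  y : W.U 4 →* G
  /-- the `U₂` component of `[U₁, U₄]` -/
  act : K → W.U 4 → W.U 4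
  /-- the `U₃` component of `[U₁, U₄]` -/
  T : W.U 4 → K → K
  /-- `[U₂, U₄]` -/
  f : W.U 4 → W.U 4 → K
  /-- `[U₁, U₃]` -/
  Γ : K → K → W.U 4
  /-- the action of `m a` on `U₃` -/
  ν : K → K → K
  /-- the elements `μ (x a)` -/
  m : K → G
  /-- the base point of `U₄` -/
  d : W.U 4
  x_add : ∀ s t, x (s + t) = x s * x t
  z_add : ∀ s t, z (s + t) = z s * z t
  x_inj : Function.Injective x
  z_inj : Function.Injective z
  y_inj : Function.Injective y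
  x_rng : Set.range x = (W.U 1 : Set G)
  y_rng : Set.range y = (W.U 2 : Set G)
  z_rng : Set.range z = (W.U 3 : Set G)
  c13 : ∀ t s, ⁅x t, z s⁆ = y (Γ t s)
  c24 : ∀ u v : W.U 4, ⁅y u, (v : G)⁆ = z (f u v)
  c14 : ∀ t (u : W.U 4), ⁅x t, (u : G)⁆ = y (act t u) * z (T u t)
  d_ne : d ≠ 1
  Td : ∀ t, T d t = t
  act_one : ∀ u, act 1 u = u
  rf : ∀ a, a ≠ 0 → Rf W 1 (m a)
  m4 : ∀ a, a ≠ 0 → ∀ u : W.U 4, m a * u * (m a)⁻¹ = y (act a u)
  m4' : ∀ a, a ≠ 0 → ∀ u : W.U 4, (m a)⁻¹ * u * m a = y (act (-a) u)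
  m3 : ∀ a, a ≠ 0 → ∀ s, m a * z s * (m a)⁻¹ = z (ν a s)
  mT : ∀ a, a ≠ 0 → ∀ u, ν a (T u a) = T u⁻¹ a
  mfl : Fl W → ∀ a, a ≠ 0 → ∀ s, ν a s = s
  mul : ∀ s t u, (y (act s (act t u)))⁻¹ * y (act (s * t) u) ∈ V W
  fth : ∀ s t, (∀ u, (y (act s u))⁻¹ * y (act t u) ∈ V W) → s = t
  n4 : ∀ u : W.U 4, u ≠ 1 → ∃ n, Rf W 4 n ∧ ∀ t, z (T u t) = n * (x t)⁻¹ * n⁻¹

/-- The algebraic content of the coordinates. -/
structure Alg (K S : Type*) [Field K] [Group S] where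
  /-- scalar multiplication -/
  act : K → S → S
  /-- the form -/
  T : S → K → K
  /-- the bilinear form -/
  f : S → S → K
  /-- the central elements -/
  Γ : K → K → S
  /-- the reflections -/
  ν : K → K → K
  /-- the base point -/
  d : S
  d_ne : d ≠ 1
  Td : ∀ t, T d t = t
  act_one : ∀ u, act 1 u = u
  act_zero : ∀ u, act 0 u = 1
  f_mul : ∀ u u' v, f (u * u') v = f u v + f u' v
  f_mul' : ∀ u v v', f u (v * v') = f u v + f u v'
  T_one : ∀ t, T 1 t = 0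
  T_mul : ∀ u v t, T (u * v) t = T u t + T v t - f (act t v) u
  T_semi : ∀ u, u ≠ 1 → ∃ (p : K) (τ : K ≃+* K), p ≠ 0 ∧ ∀ t, T u t = p * τ t
  f_Γ : ∀ t a s v, f (act t (Γ a s)) v = 0
  f_act_act : ∀ s t u v, f (act s (act t u)) v = f (act (s * t) u) v
  act_add : ∀ t t' u, act (t + t') u = act t' u * Γ t (T u t') * act t u
  ν_add : ∀ a, a ≠ 0 → ∀ s s', ν a (s + s') = ν a s + ν a s'
  ν_inj : Function.Injective (ν 1)
  ν_f : ∀ a, a ≠ 0 → ∀ u v, ν a (f (act (-a) u) v) = -f (act a v) u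
  ν_T : ∀ u, ν 1 (T u 1) = T u⁻¹ 1
  ν_act : ∀ a, a ≠ 0 → ∀ u t, ν 1 (T (act a u) t) = ν a (T u (a ^ 2 * t))
  ν_fl : (∀ t s, Γ t s = 1) → ∀ a, a ≠ 0 → ∀ s, ν a s = s
  alt : (∀ t s, Γ t s = 1) ∨ ∃ u v, f u v ≠ 0

end FS4
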