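import Mathlib
import Cfsg.Agent.Lib.FS4.Defs
import Cfsg.Agent.Lib.Tits.GRp

set_option autoImplicit false

open scoped commutatorElement

namespace FS4

open Tits

variable {G : Type*} [Group G] {W : Win G} {a b u v g : G}

namespace B1

theorem spec (h : ∃ p : G × G, p.1 ∈ W.U 2 ∧ p.2 ∈ W.U 3 ∧ ⁅a, u⁆ = p.1 * p.2) :
    φ W a u ∈ W.U 2 ∧ Q W a u ∈ W.U 3 ∧ ⁅a, u⁆ = φ W a u * Q W a u := by
  have e : pq W a u = h.choose := dif_pos h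
  have k := h.choose_spec
  rw [← e] at k
  exact k

theorem spec' (ha : a ∈ W.U 1) (hu : u ∈ W.U 4) :
    φ W a u ∈ W.U 2 ∧ Q W a u ∈ W.U 3 ∧ ⁅a, u⁆ = φ W a u * Q W a u := by
  obtain ⟨p, hp, c, hc, e⟩ := W.c3 1 a ha u hu
  exact spec ⟨(p, c), hp, hc, e⟩

theorem uq {p p' c c' : G} (hp : p ∈ W.U 2) (hc : c ∈ W.U 3) (hp' : p' ∈ W.U 2) (hc' : c' ∈ W.U 3)
    (e : p * c = p' * c') : p = p' ∧ c = c' := by
  obtain ⟨h1, h2, -⟩ := W.ind 2 _ (mul_mem (inv_mem hp') hp) _ (mul_mem hc (inv_mem hc')) 1 (one_mem _) 1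
    (one_mem _) (by
      calc _ = p'⁻¹ * (p * c) * c'⁻¹ := by group
        _ = 1 := by rw [e]; group)
  exact ⟨(inv_mul_eq_one.1 h1).symm, mul_inv_eq_one.1 h2⟩

theorem c12 (ha : a ∈ W.U 1) (hb : b ∈ W.U 2) : a * b = b * a := W.c1 1 a ha b hb
theorem c23 {c : G} (hb : b ∈ W.U 2) (hc : c ∈ W.U 3) : b * c = c * b := W.c1 2 b hb c hc
theorem c34 {c : G} (hc : c ∈ W.U 3) (hu : u ∈ W.U 4) : c * u = u * c := W.c1 3 c hc u hu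
theorem c13 {c : G} (ha : a ∈ W.U 1) (hc : c ∈ W.U 3) : ⁅a, c⁆ ∈ W.U 2 := W.c2 1 a ha c hc
theorem c24 (hb : b ∈ W.U 2) (hu : u ∈ W.U 4) : ⁅b, u⁆ ∈ W.U 3 := W.c2 2 b hb u hu
theorem c42 (hu : u ∈ W.U 4) (hb : b ∈ W.U 2) : ⁅u, b⁆ ∈ W.U 3 := by
  rw [← commutatorElement_inv]; exact inv_mem (c24 hb hu)

theorem cj (g x y : G) : g * ⁅x, y⁆ * g⁻¹ = ⁅g * x * g⁻¹, g * y * g⁻¹⁆ := by
  simp only [commutatorElement_def]; group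

theorem cl (x y : G) : x * y * x⁻¹ = ⁅x, y⁆ * y := by rw [commutatorElement_def]; group

theorem fx {x y : G} (h : x * y = y * x) : x * y * x⁻¹ = y := by rw [h]; group

/-- `x⁻¹ y x` when `x` commutes with `⁅x, y⁆` -/
theorem cr {x y : G} (h : x * ⁅x, y⁆ = ⁅x, y⁆ * x) : x⁻¹ * y * x = ⁅x, y⁆⁻¹ * y := by
  calc x⁻¹ * y * x = x⁻¹ * (x * ⁅x, y⁆ * x⁻¹)⁻¹ * x * y := by
        rw [fx h, commutatorElement_def]; group
    _ = _ := by group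

theorem tinv (hg : Tor W g) : Tor W g⁻¹ := fun j y => by
  rw [hg j (g⁻¹ * y * g⁻¹⁻¹), show g * (g⁻¹ * y * g⁻¹⁻¹) * g⁻¹ = y by group]

theorem tV (hg : Tor W g) {c : G} (hc : c ∈ V W) : g * c * g⁻¹ ∈ V W :=
  (Subgroup.commutator_le.2 fun x hx y hy => by
    show g * ⁅x, y⁆ * g⁻¹ ∈ ⁅W.U 1, W.U 3⁆
    rw [cj]
    exact Subgroup.commutator_mem_commutator ((hg 1 x).1 hx) ((hg 3 y).1 hy) :
      ⁅W.U 1, W.U 3⁆ ≤ (V W).comap (MulAut.conj g).toMonoidHom) hc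

end B1

open B1

theorem φ_mem (ha : a ∈ W.U 1) (hu : u ∈ W.U 4) : φ W a u ∈ W.U 2 := (spec' ha hu).1

theorem Q_mem (ha : a ∈ W.U 1) (hu : u ∈ W.U 4) : Q W a u ∈ W.U 3 := (spec' ha hu).2.1

theorem φQ (ha : a ∈ W.U 1) (hu : u ∈ W.U 4) : ⁅a, u⁆ = φ W a u * Q W a u := (spec' ha hu).2.2

theorem φQ_uniq {p c : G} (hp : p ∈ W.U 2) (hc : c ∈ W.U 3) (e : ⁅a, u⁆ = p * c) :
    φ W a u = p ∧ Q W a u = c := by
  obtain ⟨h1, h2, h3⟩ := spec ⟨(p, c), hp, hc, e⟩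
  exact uq h1 h2 hp hc (h3.symm.trans e)

theorem φQ_right (ha : a ∈ W.U 1) (hu : u ∈ W.U 4) (hv : v ∈ W.U 4) :
    φ W a (u * v) = φ W a u * φ W a v ∧
      Q W a (u * v) = Q W a u * ⁅φ W a v, u⁆⁻¹ * Q W a v := by
  have m := mul_mem (Q_mem ha hu) (inv_mem (c24 (φ_mem ha hv) hu))
  refine φQ_uniq (mul_mem (φ_mem ha hu) (φ_mem ha hv)) (mul_mem m (Q_mem ha hv)) ?_
  calc ⁅a, u * v⁆ = ⁅a, u⁆ * (u * ⁅a, v⁆ * u⁻¹) := by simp only [commutatorElement_def]; group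
    _ = φ W a u * (Q W a u * ⁅φ W a v, u⁆⁻¹ * φ W a v) * (u * Q W a v * u⁻¹) := by
      rw [φQ ha hu, φQ ha hv, commutatorElement_def]; group
    _ = _ := by rw [← c23 (φ_mem ha hv) m, fx (c34 (Q_mem ha hv) hu).symm]; group

theorem φQ_left (ha : a ∈ W.U 1) (hb : b ∈ W.U 1) (hu : u ∈ W.U 4) :
    φ W (a * b) u = φ W b u * ⁅a, Q W b u⁆ * φ W a u ∧ Q W (a * b) u = Q W b u * Q W a u := by
  refine φQ_uniq (mul_mem (mul_mem (φ_mem hb hu) (c13 ha (Q_mem hb hu))) (φ_mem ha hu))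
    (mul_mem (Q_mem hb hu) (Q_mem ha hu)) ?_
  calc ⁅a * b, u⁆ = a * ⁅b, u⁆ * a⁻¹ * ⁅a, u⁆ := by simp only [commutatorElement_def]; group
    _ = a * φ W b u * a⁻¹ * ⁅a, Q W b u⁆ * (Q W b u * φ W a u) * Q W a u := by
      rw [φQ ha hu, φQ hb hu, commutatorElement_def]; group
    _ = _ := by rw [← c23 (φ_mem ha hu) (Q_mem hb hu), fx (c12 ha (φ_mem hb hu))]; group

theorem φQ_conj (hg : Tor W g) (ha : a ∈ W.U 1) (hu : u ∈ W.U 4) :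
    φ W (g * a * g⁻¹) (g * u * g⁻¹) = g * φ W a u * g⁻¹ ∧
      Q W (g * a * g⁻¹) (g * u * g⁻¹) = g * Q W a u * g⁻¹ := 
  φQ_uniq ((hg 2 _).1 (φ_mem ha hu)) ((hg 3 _).1 (Q_mem ha hu)) (by rw [← cj, φQ ha hu]; group)

theorem V_le : V W ≤ W.U 2 := Subgroup.commutator_le.2 fun _ hx _ hy => c13 hx hy

theorem V_comm {c : G} (hc : c ∈ V W) (hb : b ∈ W.U 2) : Commute c b := 
  Subgroup.mem_centralizer_singleton_iff.1 ((Subgroup.commutator_le.2 fun x hx y hy => by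
    have h1 := Subgroup.mem_centralizer_singleton_iff.2 (c12 hx hb)
    have h2 := Subgroup.mem_centralizer_singleton_iff.2 (c23 hb hy).symm
    exact mul_mem (mul_mem (mul_mem h1 h2) (inv_mem h1)) (inv_mem h2) :
      ⁅W.U 1, W.U 3⁆ ≤ Subgroup.centralizer {b}) hc)

theorem Tor.V (hg : Tor W g) {c : G} : c ∈ V W ↔ g * c * g⁻¹ ∈ V W := 
  ⟨tV hg, fun h => by simpa [mul_assoc] using tV (tinv hg) h⟩

theorem Tor.inv (hg : Tor W g) : Tor W g⁻¹ := tinv hg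

theorem Rf.inv {i : ZMod 8} {m : G} (h : Rf W i m) : Rf W i m⁻¹ := fun j y => by
  rw [h (2 * i + 4 - j), sub_sub_cancel, show m * (m⁻¹ * y * m⁻¹⁻¹) * m⁻¹ = y by group]

theorem Rf.tor {i : ZMod 8} {m n : G} (h : Rf W i m) (h' : Rf W i n) : Tor W (m * n) := fun j y => by
  rw [h' j, h, sub_sub_cancel, show m * (n * y * n⁻¹) * m⁻¹ = m * n * y * (m * n)⁻¹ by group]

theorem C2 (ha : a ∈ W.U 1) (hu : u ∈ W.U 4) (hb : b ∈ W.U 2) :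
    ⁅φ W a u, b⁆ = ⁅a, ⁅b, u⁆⁆⁻¹ := by
  have hβ := c24 hb hu
  have hα := c13 ha hβ
  have hδ := c42 hu (inv_mem hα)
  have e1 : u⁻¹ * b * u = ⁅b, u⁆ * b := by
    have := cr (x := u) (y := b) (c34 (c42 hu hb) hu).symm
    rwa [commutatorElement_inv] at this
  have e2 := cr (c12 ha hα)
  have e3 : u * b * u⁻¹ = ⁅b, u⁆⁻¹ * b := by rw [commutatorElement_def]; group
  have m := mul_mem (inv_mem hα) hb
  have k : φ W a u * b * (φ W a u)⁻¹ * 1 = ⁅a, ⁅u, ⁅a, ⁅b, u⁆⁆⁻¹⁆⁆ * (⁅a, ⁅b, u⁆⁆⁻¹ * b) *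
      ⁅u, ⁅a, ⁅b, u⁆⁆⁻¹⁆ := by
    calc _ = φ W a u * (Q W a u * b * (Q W a u)⁻¹) * (φ W a u)⁻¹ := by
          rw [fx (c23 hb (Q_mem ha hu)).symm, mul_one]
      _ = ⁅a, u⁆ * b * ⁅a, u⁆⁻¹ := by rw [φQ ha hu]; group
      _ = a * (u * (a⁻¹ * (u⁻¹ * b * u) * a) * u⁻¹) * a⁻¹ := by rw [commutatorElement_def]; group
      _ = a * (u * (a⁻¹ * ⁅b, u⁆ * (b * a)) * u⁻¹) * a⁻¹ := by rw [e1]; group
      _ = a * (u * (a⁻¹ * ⁅b, u⁆ * a * b) * u⁻¹) * a⁻¹ := by rw [← c12 ha hb]; group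
      _ = a * (u * ⁅a, ⁅b, u⁆⁆⁻¹ * u⁻¹ * (u * ⁅b, u⁆ * u⁻¹) * (u * b * u⁻¹)) * a⁻¹ := by rw [e2]; group
      _ = a * ⁅u, ⁅a, ⁅b, u⁆⁆⁻¹⁆ * a⁻¹ * (a * (⁅a, ⁅b, u⁆⁆⁻¹ * b) * a⁻¹) := by
          rw [e3, fx (c34 hβ hu).symm, cl u]; group
      _ = _ := by rw [fx (c12 ha m), cl a, mul_assoc, ← c23 m hδ, ← mul_assoc]
  obtain ⟨h1, h2⟩ := uq (mul_mem (mul_mem (φ_mem ha hu) hb) (inv_mem (φ_mem ha hu))) (one_mem _)
    (mul_mem (c13 ha hδ) m) hδ k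
  rw [← h2, commutatorElement_one_right, one_mul] at h1
  rw [commutatorElement_def, h1, mul_inv_cancel_right]

theorem C3 {c : G} (ha : a ∈ W.U 1) (hu : u ∈ W.U 4) (hc : c ∈ W.U 3) :
    ⁅Q W a u, c⁆ = ⁅⁅a, c⁆, u⁆ := by
  have hα := c13 ha hc
  have hδ := c42 hu (inv_mem hα)
  have e2 := cr (c12 ha hα)
  have m := mul_mem (mul_mem (Q_mem ha hu) hc) (inv_mem (Q_mem ha hu))
  have k : 1 * (Q W a u * c * (Q W a u)⁻¹) = ⁅a, ⁅u, ⁅a, c⁆⁻¹⁆⁆ * (⁅u, ⁅a, c⁆⁻¹⁆ * c) := by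
    calc _ = φ W a u * (Q W a u * c * (Q W a u)⁻¹) * (φ W a u)⁻¹ := by
          rw [fx (c23 (φ_mem ha hu) m), one_mul]
      _ = ⁅a, u⁆ * c * ⁅a, u⁆⁻¹ := by rw [φQ ha hu]; group
      _ = a * (u * (a⁻¹ * (u⁻¹ * (c * u)) * a) * u⁻¹) * a⁻¹ := by rw [commutatorElement_def]; group
      _ = a * (u * (a⁻¹ * c * a) * u⁻¹) * a⁻¹ := by rw [c34 hc hu]; group
      _ = a * (u * ⁅a, c⁆⁻¹ * u⁻¹ * (u * c * u⁻¹)) * a⁻¹ := by rw [e2]; group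
      _ = a * ⁅u, ⁅a, c⁆⁻¹⁆ * a⁻¹ * (a * ⁅a, c⁆⁻¹ * a⁻¹) * (a * c * a⁻¹) := by
          rw [fx (c34 hc hu).symm, cl u]; group
      _ = _ := by rw [fx (c12 ha (inv_mem hα)), cl a c, cl a]; group
  have h2 := (uq (one_mem _) m (c13 ha hδ) (mul_mem hδ hc) k).2
  rw [commutatorElement_def, h2, mul_inv_cancel_right, ← fx (c23 hα hδ), commutatorElement_def u,
    commutatorElement_def _ u]
  group

/-- If `U₃` is abelian then `V₂` centralises `U₄`. -/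
theorem V_comm4 (h : ∀ c ∈ W.U 3, ∀ c' ∈ W.U 3, Commute c c') {c : G} (hc : c ∈ V W)
    (hu : u ∈ W.U 4) : Commute c u := 
  Subgroup.mem_centralizer_singleton_iff.1 ((Subgroup.commutator_le.2 fun x hx y hy =>
    Subgroup.mem_centralizer_singleton_iff.2 (commutatorElement_eq_one_iff_mul_comm.1 (by
      rw [← C3 hx hu hy]
      exact commutatorElement_eq_one_iff_commute.2 (h _ (Q_mem hx hu) y hy))) :
      ⁅W.U 1, W.U 3⁆ ≤ Subgroup.centralizer {u}) hc)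

end FS4
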