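import Mathlib
import Cfsg.Agent.Lib.FS4.B1

set_option autoImplicit false

open scoped commutatorElement

namespace FS4

open Tits

variable {G : Type*} [Group G] {W : Win G} {K : Type*} [Field K]

namespace A1

variable (C : Co W K)

theorem x_mem (t : K) : C.x t ∈ W.U 1 := by
  rw [← SetLike.mem_coe, ← C.x_rng]; exact ⟨t, rfl⟩

theorem y_mem (u : W.U 4) : C.y u ∈ W.U 2 := by
  rw [← SetLike.mem_coe, ← C.y_rng]; exact ⟨u, rfl⟩

theorem z_mem (t : K) : C.z t ∈ W.U 3 := by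
  rw [← SetLike.mem_coe, ← C.z_rng]; exact ⟨t, rfl⟩

theorem ex_x {a : G} (h : a ∈ W.U 1) : ∃ t, C.x t = a := by
  rwa [← SetLike.mem_coe, ← C.x_rng] at h

theorem ex_y {a : G} (h : a ∈ W.U 2) : ∃ u, C.y u = a := by
  rwa [← SetLike.mem_coe, ← C.y_rng] at h

theorem ex_z {a : G} (h : a ∈ W.U 3) : ∃ t, C.z t = a := by
  rwa [← SetLike.mem_coe, ← C.z_rng] at h

theorem x_zero : C.x 0 = 1 := by
  have := C.x_add 0 0
  rwa [add_zero, left_eq_mul] at this

theorem z_zero : C.z 0 = 1 := by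
  have := C.z_add 0 0
  rwa [add_zero, left_eq_mul] at this

theorem z_neg (s : K) : C.z (-s) = (C.z s)⁻¹ :=
  eq_inv_of_mul_eq_one_left (by rw [← C.z_add, neg_add_cancel, z_zero])

theorem φ_x (t : K) (u : W.U 4) : φ W (C.x t) u = C.y (C.act t u) :=
  (φQ_uniq (y_mem C _) (z_mem C _) (C.c14 t u)).1

theorem Q_x (t : K) (u : W.U 4) : Q W (C.x t) u = C.z (C.T u t) :=
  (φQ_uniq (y_mem C _) (z_mem C _) (C.c14 t u)).2

include C in
theorem comm3 : ∀ c ∈ W.U 3, ∀ c' ∈ W.U 3, Commute c c' := fun c hc c' hc' => by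
  obtain ⟨s, rfl⟩ := ex_z C hc
  obtain ⟨t, rfl⟩ := ex_z C hc'
  rw [Commute, SemiconjBy, ← C.z_add, ← C.z_add, add_comm]

theorem yz (u : W.U 4) (s : K) : Commute (C.y u) (C.z s) :=
  W.c1 2 _ (y_mem C u) _ (z_mem C s)

theorem zu (s : K) (u : W.U 4) : Commute (C.z s) (u : G) :=
  W.c1 3 _ (z_mem C s) _ u.2

theorem f_V {c : W.U 4} (h : C.y c ∈ V W) (v : W.U 4) : C.f c v = 0 :=
  C.z_inj (by rw [← C.c24, z_zero, commutatorElement_eq_one_iff_commute]; exact V_comm4 (comm3 C) h v.2)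

theorem y_eq (u : W.U 4) : C.y u = C.m 1 * u * (C.m 1)⁻¹ := by
  rw [C.m4 1 one_ne_zero, C.act_one]

end A1

namespace Co

open A1

variable (C : Co W K)

theorem act_zero (u : W.U 4) : C.act 0 u = 1 := C.y_inj (by
  rw [← φ_x, x_zero, map_one]
  exact (φQ_uniq (one_mem _) (one_mem _) (by simp)).1)

theorem f_mul (u u' v : W.U 4) : C.f (u * u') v = C.f u v + C.f u' v := C.z_inj (by
  rw [add_comm, C.z_add, ← C.c24, map_mul, ← (yz C u (C.f u' v)).mul_inv_cancel, ← C.c24, ← C.c24]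
  simp only [commutatorElement_def]
  group)

theorem f_mul' (u v v' : W.U 4) : C.f u (v * v') = C.f u v + C.f u v' := C.z_inj (by
  rw [C.z_add, ← C.c24, Subgroup.coe_mul, ← (zu C (C.f u v') v).symm.mul_inv_cancel, ← C.c24, ← C.c24]
  simp only [commutatorElement_def]
  group)

theorem T_one (t : K) : C.T 1 t = 0 := C.z_inj (by
  rw [← Q_x, z_zero]
  exact (φQ_uniq (one_mem _) (one_mem _) (by simp)).2)

theorem T_mul (u v : W.U 4) (t : K) :
    C.T (u * v) t = C.T u t + C.T v t - C.f (C.act t v) u := C.z_inj (by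
  rw [← Q_x, Subgroup.coe_mul, (φQ_right (x_mem C t) u.2 v.2).2, Q_x, Q_x, φ_x, C.c24, ← z_neg, ← C.z_add,
    ← C.z_add]
  congr 1
  ring)

theorem A1_act_V {c : W.U 4} (h : C.y c ∈ V W) (t : K) : C.y (C.act t c) ∈ V W := by
  by_cases ht : t = 0
  · rw [ht, C.act_zero, map_one]; exact one_mem _
  · have := ((C.rf t ht).tor (C.rf 1 one_ne_zero).inv).V.1 h
    rw [y_eq] at this
    rw [← C.m4 t ht]
    convert this using 1
    group

theorem f_Γ (t a s : K) (v : W.U 4) : C.f (C.act t (C.Γ a s)) v = 0 :=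
  f_V C (C.A1_act_V (by
    rw [← C.c13]; exact Subgroup.commutator_mem_commutator (x_mem C a) (z_mem C s)) t) v

theorem f_act_act (s t : K) (u v : W.U 4) :
    C.f (C.act s (C.act t u)) v = C.f (C.act (s * t) u) v := by
  have h := C.mul s t u
  rw [← map_inv, ← map_mul] at h
  rw [← mul_inv_cancel_left (C.act s (C.act t u)) (C.act (s * t) u), C.f_mul, f_V C h, add_zero]

theorem act_add (t t' : K) (u : W.U 4) :
    C.act (t + t') u = C.act t' u * C.Γ t (C.T u t') * C.act t u := C.y_inj (by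
  rw [← φ_x, C.x_add, (φQ_left (x_mem C t) (x_mem C t') u.2).1, φ_x, φ_x, Q_x, C.c13, map_mul, map_mul])

theorem ν_add {a : K} (ha : a ≠ 0) (s s' : K) : C.ν a (s + s') = C.ν a s + C.ν a s' := C.z_inj (by
  rw [C.z_add, ← C.m3 a ha, ← C.m3 a ha, ← C.m3 a ha, C.z_add]
  group)

theorem ν_inj : Function.Injective (C.ν 1) := fun s s' h => C.z_inj (by
  have := congrArg C.z h
  rwa [← C.m3 1 one_ne_zero, ← C.m3 1 one_ne_zero, mul_left_inj, mul_right_inj] at this)

theorem ν_f {a : K} (ha : a ≠ 0) (u v : W.U 4) :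
    C.ν a (C.f (C.act (-a) u) v) = -C.f (C.act a v) u := C.z_inj (by
  rw [z_neg, ← C.m3 a ha, ← C.c24, ← C.c24, ← C.m4 a ha, ← C.m4' a ha]
  simp only [commutatorElement_def]
  group)

theorem fl_iff : Fl W ↔ ∀ t s, C.Γ t s = 1 := by
  refine ⟨fun h t s => C.y_inj ?_, fun h a ha c hc => ?_⟩
  · rw [← C.c13, map_one, commutatorElement_eq_one_iff_commute]
    exact h _ (x_mem C t) _ (z_mem C s)
  · obtain ⟨t, rfl⟩ := ex_x C ha
    obtain ⟨s, rfl⟩ := ex_z C hc
    rw [← commutatorElement_eq_one_iff_commute, C.c13, h, map_one]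

theorem fl'_iff : Fl' W ↔ ∀ u v, C.f u v = 0 := by
  refine ⟨fun h u v => C.z_inj ?_, fun h b hb v hv => ?_⟩
  · rw [← C.c24, z_zero, commutatorElement_eq_one_iff_commute]
    exact h _ (y_mem C u) _ v.2
  · obtain ⟨u, rfl⟩ := ex_y C hb
    rw [← commutatorElement_eq_one_iff_commute, C.c24 u ⟨v, hv⟩, h, z_zero]

end Co

end FS4
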