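import Mathlib
import Cfsg.Agent.Lib.FS4.B1

set_option autoImplicit false

open scoped commutatorElement

namespace FS4

open Tits

variable {G : Type*} [Group G] {W : Win G} {K : Type*} [Field K]

namespace A2

variable (C : Co W K) {g : G}

theorem xm (t : K) : C.x t ∈ W.U 1 := by
  have : C.x t ∈ Set.range C.x := ⟨t, rfl⟩
  rwa [C.x_rng] at this

theorem ym (u : W.U 4) : C.y u ∈ W.U 2 := by
  have : C.y u ∈ Set.range C.y := ⟨u, rfl⟩
  rwa [C.y_rng] at this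

theorem zm (t : K) : C.z t ∈ W.U 3 := by
  have : C.z t ∈ Set.range C.z := ⟨t, rfl⟩
  rwa [C.z_rng] at this

theorem exx {a : G} (h : a ∈ W.U 1) : ∃ t, C.x t = a := by
  have : a ∈ (W.U 1 : Set G) := h
  rwa [← C.x_rng] at this

theorem x0 : C.x 0 = 1 := by
  have := C.x_add 0 0
  rwa [add_zero, left_eq_mul] at this

theorem pq (t : K) (u : W.U 4) :
    φ W (C.x t) u = C.y (C.act t u) ∧ Q W (C.x t) u = C.z (C.T u t) :=
  φQ_uniq (ym C _) (zm C _) (C.c14 t u)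

theorem y0 (u : W.U 4) : C.y (C.act 0 u) = 1 := by
  rw [← (pq C 0 u).1]
  exact (φQ_uniq (one_mem _) (one_mem _) (by rw [x0, commutatorElement_one_left, mul_one])).1

/-- congruence modulo `V` -/
def Ap (W : Win G) (a b : G) : Prop := a⁻¹ * b ∈ V W

theorem Ap.refl (a : G) : Ap W a a := by
  rw [Ap, inv_mul_cancel]
  exact one_mem _

theorem Ap.symm {a b : G} (h : Ap W a b) : Ap W b a := by
  have := inv_mem h
  rwa [mul_inv_rev, inv_inv] at this

theorem Ap.trans {a b c : G} (h : Ap W a b) (k : Ap W b c) : Ap W a c := by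
  have := mul_mem h k
  rwa [mul_assoc, mul_inv_cancel_left] at this

theorem Ap.conj {a b : G} (hg : Tor W g) (h : Ap W a b) : Ap W (g * a * g⁻¹) (g * b * g⁻¹) := by
  have := hg.V.1 h
  rwa [show g * (a⁻¹ * b) * g⁻¹ = (g * a * g⁻¹)⁻¹ * (g * b * g⁻¹) by group] at this

theorem y1 (u : W.U 4) : C.m 1 * u * (C.m 1)⁻¹ = C.y u := by
  rw [C.m4 1 one_ne_zero, C.act_one]

theorem Ap.act {u v : W.U 4} (r : K) (h : Ap W (C.y u) (C.y v)) :
    Ap W (C.y (C.act r u)) (C.y (C.act r v)) := by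
  by_cases hr : r = 0
  · rw [hr, y0, y0]
    exact Ap.refl _
  have e : ∀ w : W.U 4, C.y (C.act r w) = C.m r * (C.m 1)⁻¹ * C.y w * (C.m r * (C.m 1)⁻¹)⁻¹ := fun w => by
    rw [← C.m4 r hr, ← y1]
    group
  rw [e, e]
  exact h.conj ((C.rf r hr).tor (C.rf 1 one_ne_zero).inv)

/-- conjugation on `U₄` -/
def c4 (hg : Tor W g) (u : W.U 4) : W.U 4 := ⟨g * u * g⁻¹, (hg 4 u).1 u.2⟩

theorem c4_surj (hg : Tor W g) (v : W.U 4) : ∃ u, c4 hg u = v :=
  ⟨c4 hg.inv v, Subtype.ext (by simp only [c4]; group)⟩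

theorem conj (hg : Tor W g) {t t' : K} (e : g * C.x t * g⁻¹ = C.x t') (u : W.U 4) :
    C.y (C.act t' (c4 hg u)) = g * C.y (C.act t u) * g⁻¹ ∧
      C.z (C.T (c4 hg u) t') = g * C.z (C.T u t) * g⁻¹ := by
  have := φQ_conj hg (xm C t) u.2
  rw [e, (pq C t u).1, (pq C t u).2] at this
  rw [← (pq C t' _).1, ← (pq C t' _).2]
  exact this

theorem mul' (s t : K) (u : W.U 4) : Ap W (C.y (C.act s (C.act t u))) (C.y (C.act (s * t) u)) :=
  C.mul s t u

theorem θ_mul (hg : Tor W g) {θ : K → K} (h : ∀ t, g * C.x t * g⁻¹ = C.x (θ t)) (s t : K) :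
    θ 1 * θ (s * t) = θ s * θ t := by
  have k : ∀ t u, C.act (θ t) (c4 hg u) = C.act (θ 1) (c4 hg (C.act t u)) := fun t u =>
    C.y_inj (by rw [(conj C hg (h t) u).1, (conj C hg (h 1) _).1, C.act_one])
  refine C.fth _ _ fun v => ?_
  obtain ⟨u, rfl⟩ := c4_surj hg v
  have a1 := (mul' C (θ 1) (θ (s * t)) (c4 hg u)).symm
  have a2 : Ap W (C.y (C.act (θ (s * t)) (c4 hg u))) (C.y (C.act (θ s) (c4 hg (C.act t u)))) := by
    rw [(conj C hg (h _) _).1, (conj C hg (h _) _).1]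
    exact (mul' C s t u).symm.conj hg
  have a3 := mul' C (θ 1) (θ s) (c4 hg (C.act t u))
  have a4 := (mul' C (θ s) (θ 1) (c4 hg (C.act t u))).symm
  rw [← k, mul_comm (θ s)] at a4
  exact (((a1.trans (a2.act C _)).trans a3).trans a4).trans (mul' C _ _ _)

end A2

namespace Co

variable (C : Co W K)

open A2

theorem semi {g : G} (hg : Tor W g) : ∃ (p : K) (τ : K ≃+* K), p ≠ 0 ∧
    ∀ t, g * C.x t * g⁻¹ = C.x (p * τ t) := by
  choose θ h using fun t => exx C ((hg 1 _).1 (xm C t))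
  have h' : ∀ t, g * C.x t * g⁻¹ = C.x (θ t) := fun t => (h t).symm
  have p0 : θ 1 ≠ 0 := fun e => by
    have := h' 1
    rw [e, x0, mul_inv_eq_one, mul_eq_left, ← x0 C] at this
    exact one_ne_zero (C.x_inj this)
  have ad : ∀ s t, θ (s + t) = θ s + θ t := fun s t => C.x_inj (by
    rw [C.x_add, h, h, h, C.x_add]
    group)
  have z0 : θ 0 = 0 := by
    have := ad 0 0
    rwa [add_zero, left_eq_add] at this
  let τ : K →+* K :=
    { toFun := fun t => (θ 1)⁻¹ * θ t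
      map_one' := inv_mul_cancel₀ p0
      map_mul' := fun s t => by
        have := θ_mul C hg h' s t
        field_simp
        linear_combination this
      map_zero' := by rw [z0, mul_zero]
      map_add' := fun s t => by rw [ad, mul_add] }
  have sj : Function.Surjective τ := fun r => by
    obtain ⟨t, e⟩ := exx C ((hg.inv 1 _).1 (xm C (θ 1 * r)))
    have : θ t = θ 1 * r := C.x_inj (by
      rw [h, e]
      group)
    exact ⟨t, by
      show (θ 1)⁻¹ * θ t = r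
      rw [this, inv_mul_cancel_left₀ p0]⟩
  refine ⟨θ 1, RingEquiv.ofBijective τ ⟨τ.injective, sj⟩, p0, fun t => ?_⟩
  rw [h']
  congr 1
  exact (mul_inv_cancel_left₀ p0 _).symm

theorem T_semi {u : W.U 4} (hu : u ≠ 1) :
    ∃ (p : K) (τ : K ≃+* K), p ≠ 0 ∧ ∀ t, C.T u t = p * τ t := by
  obtain ⟨n, rn, hn⟩ := C.n4 u hu
  obtain ⟨k, rk, hk⟩ := C.n4 C.d C.d_ne
  obtain ⟨p, τ, p0, h⟩ := C.semi (rk.inv.tor rn)
  refine ⟨p, τ, p0, fun t => C.x_inj ?_⟩
  have e := hk (C.T u t)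
  rw [C.Td, hn] at e
  rw [← h]
  calc C.x (C.T u t) = k⁻¹ * (k * (C.x (C.T u t))⁻¹ * k⁻¹)⁻¹ * k := by group
    _ = _ := by rw [← e]; group

theorem ν_act {a : K} (ha : a ≠ 0) (u : W.U 4) (t : K) :
    C.ν 1 (C.T (C.act a u) t) = C.ν a (C.T u (a ^ 2 * t)) := by
  have hg : Tor W ((C.m 1)⁻¹ * C.m a) := (C.rf 1 one_ne_zero).inv.tor (C.rf a ha)
  have c : ∀ u, c4 hg u = C.act a u := fun u => Subtype.ext (by
    have e := C.m4 a ha u
    rw [← y1] at e
    simp only [c4]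
    calc _ = (C.m 1)⁻¹ * (C.m a * u * (C.m a)⁻¹) * C.m 1 := by group
      _ = _ := by rw [e]; group)
  obtain ⟨s, e⟩ := exx C ((hg 1 _).1 (xm C (a ^ 2 * t)))
  have k : a * s * a = a ^ 2 * t := by
    refine C.fth _ _ fun v => ?_
    have m : C.m a * C.y (C.act (a ^ 2 * t) v) * (C.m a)⁻¹ ∈ W.U 4 := by
      have := (C.rf a ha 2 _).1 (ym C (C.act (a ^ 2 * t) v))
      rwa [show (2 * 1 + 4 - 2 : ZMod 8) = 4 by decide] at this
    have e1 : C.y (C.act (-a) ⟨_, m⟩) = C.y (C.act (a ^ 2 * t) v) := by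
      rw [← C.m4' a ha]
      group
    have e2 : C.act s (C.act a v) = C.act (-1) ⟨_, m⟩ := C.y_inj (by
      rw [← c, (conj C hg e.symm v).1, ← C.m4' 1 one_ne_zero]
      group)
    have a1 := (mul' C (a * s) a v).symm
    have a2 := (mul' C a s (C.act a v)).symm
    have a3 := mul' C a (-1) ⟨_, m⟩
    rw [mul_neg_one, e1, ← e2] at a3
    exact (a1.trans a2).trans a3
  obtain rfl : s = t := mul_left_cancel₀ (pow_ne_zero 2 ha) (by rw [← k]; ring)
  have f := (conj C hg e.symm u).2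
  rw [c] at f
  apply C.z_inj
  rw [← C.m3 1 one_ne_zero, ← C.m3 a ha, f]
  group

end Co

end FS4
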