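import Mathlib
import Cfsg.Agent.Lib.FS4.Defs
import Cfsg.Agent.Lib.Tits.NB3

set_option autoImplicit false

open scoped commutatorElement

namespace FS4

open Tits

variable {K S : Type*} [Field K] [Group S]

namespace AlH

open Classical in
theorem dk (σ τ ρ η χ : K ≃+* K) (a b c e : K)
    (h : ∀ t, a * σ t + b * τ t + c * ρ t + e * η t = 0) :
    (if σ = χ then a else 0) + (if τ = χ then b else 0) + (if ρ = χ then c else 0) +
      (if η = χ then e else 0) = 0 := by
  have li := linearIndependent_monoidHom K K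
  have inj : ∀ x y : K ≃+* K, (x : K →* K) = (y : K →* K) ↔ x = y := fun x y =>
    ⟨fun e => RingEquiv.ext fun t => DFunLike.congr_fun e t, fun e => by rw [e]⟩
  have := linearIndependent_iff.1 li (Finsupp.single (σ : K →* K) a + Finsupp.single (τ : K →* K) b +
    Finsupp.single (ρ : K →* K) c + Finsupp.single (η : K →* K) e) (by
      simp only [map_add, Finsupp.linearCombination_single]
      funext t
      simpa using h t)
  have h2 := DFunLike.congr_fun this (χ : K →* K)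
  simpa only [Finsupp.add_apply, Finsupp.single_apply, inj, Finsupp.zero_apply] using h2

end AlH

theorem ded3 {a b c : K} {σ τ ρ : K ≃+* K} (ha : a ≠ 0) (hb : b ≠ 0)
    (h : ∀ t, a * σ t + b * τ t = c * ρ t) : σ = τ := by
  classical
  by_contra hne
  have h' : ∀ t, a * σ t + b * τ t + (-c) * ρ t + 0 * ρ t = 0 := fun t => by
    linear_combination h t
  have h1 := AlH.dk σ τ ρ ρ σ _ _ _ _ h'
  have h2 := AlH.dk σ τ ρ ρ τ _ _ _ _ h'
  have e1 : ρ = σ := by
    by_contra e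
    simp [Ne.symm hne, e, ha] at h1
  have e2 : ρ = τ := by
    by_contra e
    simp [hne, e, hb] at h2
  exact hne (e1.symm.trans e2)

theorem ded4 {p r s : K} {σ τ ρ : K ≃+* K} (hp : p ≠ 0) (hr : r ≠ 0)
    (h : ∀ a, a ≠ 0 → ∃ (c : K) (η : K ≃+* K), ∀ t,
      p * (σ a - 1) * σ t + r * τ a * (1 - τ a) * τ t = s * ρ a * ρ t - c * η t) : σ = τ := by
  classical
  by_contra hne
  have key : ∀ a, a ≠ 0 → a ≠ 1 → (ρ = σ ∧ p * (σ a - 1) = s * σ a) ∨ (ρ = τ ∧ r * (1 - τ a) = s) := by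
    intro a h0 h1
    obtain ⟨c, η, hc⟩ := h a h0
    have hA : p * (σ a - 1) ≠ 0 := mul_ne_zero hp (sub_ne_zero.2 fun e => h1 (σ.injective (by simpa using e)))
    have hτ : τ a ≠ 0 := by simpa using h0
    have hB : r * τ a * (1 - τ a) ≠ 0 :=
      mul_ne_zero (mul_ne_zero hr hτ) (sub_ne_zero.2 fun e => h1 (τ.injective (by simpa using e.symm)))
    have h' : ∀ t, p * (σ a - 1) * σ t + r * τ a * (1 - τ a) * τ t + (-(s * ρ a)) * ρ t + c * η t = 0 :=
      fun t => by linear_combination hc t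
    have k1 := AlH.dk σ τ ρ η σ _ _ _ _ h'
    have k2 := AlH.dk σ τ ρ η τ _ _ _ _ h'
    rw [if_pos rfl, if_neg (Ne.symm hne)] at k1
    rw [if_neg hne, if_pos rfl] at k2
    by_cases e1 : ρ = σ
    · have e2 : ρ ≠ τ := fun e => hne (e1.symm.trans e)
      have e3 : η = τ := by
        by_contra e
        rw [if_neg e2, if_neg e] at k2
        exact hB (by linear_combination k2)
      have e4 : η ≠ σ := fun e => hne (e.symm.trans e3)
      rw [if_pos e1, if_neg e4, e1] at k1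
      exact Or.inl ⟨e1, by linear_combination k1⟩
    · have e3 : η = σ := by
        by_contra e
        rw [if_neg e1, if_neg e] at k1
        exact hA (by linear_combination k1)
      have e4 : η ≠ τ := fun e => hne (e3.symm.trans e)
      have e2 : ρ = τ := by
        by_contra e
        rw [if_neg e, if_neg e4] at k2
        exact hB (by linear_combination k2)
      rw [if_pos e2, if_neg e4, e2] at k2
      refine Or.inr ⟨e2, mul_left_cancel₀ hτ (by linear_combination k2)⟩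
  have uniq : ∀ a b : K, a ≠ 0 → a ≠ 1 → b ≠ 0 → b ≠ 1 → a = b := by
    intro a b a0 a1 b0 b1
    rcases key a a0 a1 with ⟨e, ha⟩ | ⟨e, ha⟩ <;> rcases key b b0 b1 with ⟨e', hb⟩ | ⟨e', hb⟩
    · apply σ.injective
      have : p * (σ a - σ b) = 0 := by linear_combination (σ b) * ha - (σ a) * hb
      exact sub_eq_zero.1 ((mul_eq_zero.1 this).resolve_left hp)
    · exact absurd (e.symm.trans e') hne
    · exact absurd (e'.symm.trans e) hne
    · apply τ.injective
      have : r * (τ a - τ b) = 0 := by linear_combination hb - ha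
      exact sub_eq_zero.1 ((mul_eq_zero.1 this).resolve_left hr)
  apply hne
  ext t
  by_cases t0 : t = 0
  · simp [t0]
  by_cases t1 : t = 1
  · simp [t1]
  exact uniq _ _ (by simpa using t0) (fun e => t1 (σ.injective (by simpa using e))) (by simpa using t0)
    (fun e => t1 (τ.injective (by simpa using e)))

namespace AlH

theorem semi0 (A : Alg K S) (w : S) : ∃ (c : K) (η : K ≃+* K), ∀ t, A.T w t = c * η t := by
  by_cases h : w = 1
  · exact ⟨0, RingEquiv.refl K, fun t => by rw [h, A.T_one, zero_mul]⟩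
  · obtain ⟨p, τ, -, h⟩ := A.T_semi w h
    exact ⟨p, τ, h⟩

theorem same (A : Alg K S) {u v : S} {p r : K} {σ τ : K ≃+* K} (hp : p ≠ 0) (hr : r ≠ 0)
    (hu : ∀ t, A.T u t = p * σ t) (hv : ∀ t, A.T v t = r * τ t) : σ = τ := by
  by_cases hΓ : ∀ t s, A.Γ t s = 1
  · obtain ⟨s, ρ, hs⟩ := semi0 A (u * v)
    refine ded4 (s := s) (ρ := ρ) hp hr fun a ha => ?_
    obtain ⟨c, η, hc⟩ := semi0 A (u * A.act a v)
    refine ⟨c, η, fun t => ?_⟩
    have e1 := A.T_mul u (A.act a v) t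
    have e2 := A.T_mul u v (t * a)
    have e3 := A.ν_act a ha v t
    rw [A.ν_fl hΓ 1 one_ne_zero, A.ν_fl hΓ a ha] at e3
    rw [A.f_act_act, e3, hc, hu, hv] at e1
    rw [hs, hu, hv] at e2
    simp only [map_mul, map_pow] at e1 e2
    linear_combination e1 - e2
  · push Not at hΓ
    obtain ⟨a, s, hc⟩ := hΓ
    obtain ⟨q, χ, hq, hχ⟩ := A.T_semi _ hc
    have k : ∀ {w : S} {x : K} {κ : K ≃+* K}, x ≠ 0 → (∀ t, A.T w t = x * κ t) → κ = χ := by
      intro w x κ hx hw
      obtain ⟨c, η, hη⟩ := semi0 A (w * A.Γ a s)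
      refine ded3 (c := c) (ρ := η) hx hq fun t => ?_
      rw [← hw, ← hχ, ← hη, A.T_mul, A.f_Γ, sub_zero]
    exact (k hp hu).trans (k hr hv).symm

end AlH

theorem Alg.lin (A : Alg K S) (u : S) (t : K) : A.T u t = t * A.T u 1 := by
  by_cases h : u = 1
  · rw [h, A.T_one, A.T_one, mul_zero]
  obtain ⟨p, τ, hp, hτ⟩ := A.T_semi u h
  have : τ = RingEquiv.refl K :=
    AlH.same A hp one_ne_zero hτ (v := A.d) fun t => by rw [A.Td]; simp
  rw [hτ, hτ, this]
  simp [mul_comm]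

namespace AlH

theorem π_mul (A : Alg K S) (u v : S) : A.T (u * v) 1 = A.T u 1 + A.T v 1 - A.f v u := by
  rw [A.T_mul, A.act_one]

theorem f_act (A : Alg K S) (t : K) (v u : S) : A.f (A.act t v) u = t * A.f v u := by
  have e := A.T_mul u v t
  rw [A.lin (u * v), A.lin u, A.lin v, π_mul] at e
  linear_combination e

theorem ν_neg (A : Alg K S) {a : K} (ha : a ≠ 0) (s : K) : A.ν a (-s) = -A.ν a s := by
  have h0 : A.ν a 0 = 0 := by
    have := A.ν_add a ha 0 0
    rw [add_zero] at this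
    linear_combination -this
  have := A.ν_add a ha s (-s)
  rw [add_neg_cancel, h0] at this
  linear_combination -this

theorem ν_f' (A : Alg K S) {a : K} (ha : a ≠ 0) (u v : S) : A.ν a (a * A.f u v) = a * A.f v u := by
  have := A.ν_f a ha u v
  rw [f_act, f_act, neg_mul, ν_neg A ha] at this
  exact neg_injective this

theorem ν_f1 (A : Alg K S) (u v : S) : A.ν 1 (A.f u v) = A.f v u := by
  simpa using ν_f' A one_ne_zero u v

theorem exσ (A : Alg K S) : ∃ (σ : K ≃+* K) (ε : K), (∀ a, σ (σ a) = a) ∧ ε * σ ε = 1 ∧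
    (∀ a, A.ν 1 a = ε * σ a) ∧ ∀ a c, a ≠ 0 → A.ν a (a * c) = a * A.ν 1 c := by
  rcases A.alt with hΓ | ⟨u0, v0, h0⟩
  · refine ⟨RingEquiv.refl K, 1, fun _ => rfl, by simp, fun a => ?_, fun a c ha => ?_⟩
    · rw [A.ν_fl hΓ 1 one_ne_zero]; simp
    · rw [A.ν_fl hΓ 1 one_ne_zero, A.ν_fl hΓ a ha]
  · have onto : ∀ c, ∃ u, A.f u v0 = c := fun c =>
      ⟨A.act (c / A.f u0 v0) u0, by rw [f_act, div_mul_cancel₀ _ h0]⟩
    obtain ⟨σ, ε, h1, h2, h3⟩ := NB.exists_σ (θ := A.ν 1) (A.ν_add 1 one_ne_zero) (fun a => by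
      obtain ⟨u, rfl⟩ := onto a
      rw [ν_f1, ν_f1]) (fun a b s _ _ => by
      obtain ⟨u, rfl⟩ := onto s
      rw [← f_act, ν_f1, ν_f1, ← f_act, ← f_act, ν_f1, ← f_act, ν_f1])
    refine ⟨σ, ε, h1, h2, h3, fun a c ha => ?_⟩
    obtain ⟨u, rfl⟩ := onto c
    rw [ν_f' A ha, ν_f1]

end AlH

theorem Alg.dat (A : Alg K S) : ∃ D : NB.Dat K S, D.act = A.act ∧ D.f = A.f ∧
    (∀ u t, A.T u t = t * D.π u) ∧ ∀ t s, A.Γ t s = D.γ (s * D.σ t) := by
  obtain ⟨σ, ε, h1, h2, h3, h4⟩ := AlH.exσ A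
  have ε0 : ε ≠ 0 := fun e => by simp [e] at h2
  have fs : ∀ u v, A.f u v = -(-ε * σ (A.f v u)) := fun u v => by
    rw [← AlH.ν_f1 A v u, h3]; ring
  have f1 : ∀ v, A.f 1 v = 0 := fun v => by
    have := A.f_mul 1 1 v
    rw [mul_one] at this
    linear_combination -this
  have fself : ∀ u, A.f u u = -ε * σ (A.T u 1) - A.T u 1 := fun u => by
    have e1 := AlH.π_mul A u u⁻¹
    have e2 := A.f_mul u⁻¹ u u
    have e3 := A.ν_T u
    rw [mul_inv_cancel, A.T_one] at e1
    rw [inv_mul_cancel, f1] at e2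
    rw [h3] at e3
    linear_combination -e1 - e2 + e3
  have fΓ : ∀ a s v, A.f (A.Γ a s) v = 0 := fun a s v => by
    have := A.f_Γ 1 a s v
    rwa [A.act_one] at this
  have πact : ∀ a u, A.T (A.act a u) 1 = a * σ a * A.T u 1 := fun a u => by
    by_cases ha : a = 0
    · rw [ha, A.act_zero, A.T_one]; simp
    have e := A.ν_act a ha u 1
    rw [A.lin u, mul_one, pow_two, mul_assoc, h4 _ _ ha, h3, h3] at e
    apply σ.injective
    simp only [map_mul, h1] at e ⊢
    exact mul_left_cancel₀ ε0 (by linear_combination e)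
  have πΓ : ∀ t s, A.T (A.Γ t s) 1 = s * σ t + -ε * σ (s * σ t) := fun t s => by
    have e := congrArg (fun w => A.T w 1) (A.act_add t s A.d)
    simp only [AlH.π_mul, πact, A.Td, A.f_mul', fΓ, AlH.f_act] at e
    have e1 := fs A.d (A.act s A.d)
    have e2 := fs A.d (A.Γ t s)
    have e3 := fs A.d A.d
    have e4 := fself A.d
    rw [AlH.f_act] at e1
    rw [fΓ] at e2
    rw [A.Td] at e4
    simp only [map_mul, map_add, map_zero, map_one, h1] at e e1 e2 e4 ⊢
    linear_combination -e + t * e1 + t * e2 - t * σ s * e3 + t * σ s * e4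
  have an : ∀ u, A.T u 1 = 0 → u = 1 := fun u hu => by
    by_contra h
    obtain ⟨p, τ, hp, hτ⟩ := A.T_semi u h
    rw [hτ] at hu
    simp [hp] at hu
  refine ⟨⟨σ, -ε, A.act, A.Γ 1, A.f, fun u => A.T u 1, h1, by simpa using h2, A.f_mul, AlH.f_act A, fs, fself,
    fΓ 1, AlH.π_mul A, πact, fun s => by simpa using πΓ 1 s, an, ⟨A.d, A.d_ne⟩⟩, rfl, rfl, A.lin, fun t s => ?_⟩
  refine NB.Dat.ext0 (f := A.f) (π := fun u => A.T u 1) (θ := fun x => -ε * σ x) A.f_mul fs (by simp)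
    (AlH.π_mul A) an (fΓ t s) (fΓ 1 _) ?_
  show A.T (A.Γ t s) 1 = A.T (A.Γ 1 (s * σ t)) 1
  rw [πΓ, πΓ]
  simp

end FS4
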