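import Mathlib
import Cfsg.Agent.Lib.FS4.B1

set_option autoImplicit false

open scoped commutatorElement

namespace FS4

open Tits

variable {G : Type*} [Group G] {W : Win G} {a b u v g : G}

theorem B2.uq (i : ZMod 8) {c a' b' c' : G} (ha : a ∈ W.U i) (hb : b ∈ W.U (i + 1)) (hc : c ∈ W.U (i + 2))
    (ha' : a' ∈ W.U i) (hb' : b' ∈ W.U (i + 1)) (hc' : c' ∈ W.U (i + 2)) (e : a * b * c = a' * b' * c') :
    a = a' ∧ b = b' ∧ c = c' := by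
  have := GRp.puq (W := W) (W' := W) (a := (a, a)) (b := (b, b)) (c := (c, c)) (a' := (a', a')) (b' := (b', b'))
    (c' := (c', c')) ⟨ha, ha⟩ ⟨hb, hb⟩ ⟨hc, hc⟩ ⟨ha', ha'⟩ ⟨hb', hb'⟩ ⟨hc', hc'⟩ (Prod.ext e e)
  exact ⟨congrArg Prod.fst this.1, congrArg Prod.fst this.2.1, congrArg Prod.fst this.2.2⟩

theorem mu4 (hu : u ∈ W.U 4) (h : u ≠ 1) :
    ∃ n, Rf W 4 n ∧ ∀ a ∈ W.U 1, Q W a u = n * a⁻¹ * n⁻¹ := by
  obtain ⟨w, hw, w', hw', r⟩ := W.mu 4 u hu h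
  refine ⟨_, r, fun a ha => ?_⟩
  have hz : _ ∈ W.U 3 := (r 1 _).1 (inv_mem ha)
  obtain ⟨b1, h1, b2, h2, e⟩ := W.c3 0 _ (inv_mem hw) _ hz
  have cm := (W.c1 0 _ hw' _ (inv_mem ha)).eq
  refine (B2.uq 1 h1 h2 hz (inv_mem ha) (φ_mem ha hu) (Q_mem ha hu) ?_).2.2.symm
  rw [← e, mul_assoc a⁻¹, ← φQ ha hu]
  calc _ = u * (w' * a⁻¹) * w'⁻¹ * u⁻¹ := by group
    _ = _ := by rw [cm]; group

theorem B2.one {w w' : G} (ha : a ∈ W.U 1) (hw : w ∈ W.U 5) (hw' : w' ∈ W.U 5) (r : Rf W 1 (w * a * w'))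
    (hu : u ∈ W.U 4) : w * a * w' * u * (w * a * w')⁻¹ = φ W a u ∧
      w⁻¹ * φ W a u * w = φ W a u * Q W a u * u := by
  have hz : _ ∈ W.U 2 := (r 4 _).1 hu
  obtain ⟨b1, h1, b2, h2, e⟩ := W.c3 2 _ (inv_mem hz) _ (inv_mem hw)
  have cm := (W.c1 4 _ hu _ hw').eq
  have k : w⁻¹ * (w * a * w' * u * (w * a * w')⁻¹) * w = φ W a u * Q W a u * u := by
    rw [← φQ ha hu]
    calc _ = a * (w' * u) * w'⁻¹ * a⁻¹ := by group
      _ = _ := by rw [← cm]; group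
  have := (B2.uq 2 hz h1 h2 (φ_mem ha hu) (Q_mem ha hu) hu (by rw [← k, mul_assoc _ b1, ← e]; group)).1
  exact ⟨this, this ▸ k⟩

theorem mu1' (ha : a ∈ W.U 1) (h : a ≠ 1) : ∃ m, Rf W 1 m ∧
    (∀ u ∈ W.U 4, m * u * m⁻¹ = φ W a u) ∧ (∀ u ∈ W.U 4, m⁻¹ * u * m = φ W a⁻¹ u) ∧
    (∃ b ∈ W.U 1, ∀ u ∈ W.U 4, φ W b u = φ W a⁻¹ u ∧ m * Q W b u * m⁻¹ = (Q W a u⁻¹)⁻¹) ∧
    (Fl W → ∀ c ∈ W.U 3, Commute m c) := by
  obtain ⟨w, hw, w', hw', r⟩ := W.mu 1 a ha h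
  replace r : Rf W 1 (w * a * w') := r
  have r' := r.inv
  have k1 := fun u hu => B2.one ha hw hw' r (u := u) hu
  have k2 : ∀ u ∈ W.U 4, (w * a * w')⁻¹ * u * (w * a * w') = φ W a⁻¹ u := fun u hu => by
    rw [← (B2.one (inv_mem ha) (inv_mem hw') (inv_mem hw) (by convert r' using 1; group) hu).1]; group
  have fl : Fl W → ∀ x ∈ W.U 5, ∀ c ∈ W.U 3, Commute x c := fun f x hx c hc => by
    have := (f _ ((r 5 x).1 hx) _ ((r 3 c).1 hc)).eq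
    rwa [conj_mul, conj_mul, mul_left_inj, mul_right_inj] at this
  refine ⟨_, r, fun u hu => (k1 u hu).1, k2, ?_, fun f c hc =>
    ((fl f w hw c hc).mul_left (f a ha c hc)).mul_left (fl f w' hw' c hc)⟩
  generalize w * a * w' = m at *
  refine ⟨_, (r' 5 _).1 (inv_mem hw), fun x hx => ?_⟩
  obtain ⟨e1, e2⟩ := k1 x hx
  have hp := φ_mem (inv_mem ha) hx
  have hc := φ_mem ha hx
  have hq : _ ∈ W.U 3 := (r' 3 _).1 (Q_mem ha hx)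
  have hy : ⁅x, φ W a⁻¹ x⁆ ∈ W.U 3 := by rw [← commutatorElement_inv]; exact inv_mem (W.c2 2 _ hp _ hx)
  obtain ⟨f1, f2⟩ := φQ_uniq (a := m⁻¹ * w⁻¹ * m⁻¹⁻¹) (u := x) hp (mul_mem hq hy) (by
    rw [(W.c1 2 _ hp _ (mul_mem hq hy)).eq]
    calc _ = m⁻¹ * (w⁻¹ * (m * x * m⁻¹) * w) * m * x⁻¹ := by group
      _ = x * (m⁻¹ * Q W a x * m⁻¹⁻¹) * (m⁻¹ * x * m) * x⁻¹ := by rw [e1, e2, ← e1]; group
      _ = _ := by rw [k2 x hx, ← (W.c1 3 _ hq _ hx).eq]; group)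
  refine ⟨f1, ?_⟩
  obtain ⟨g1, g2⟩ := φQ_right ha hx (inv_mem hx)
  obtain ⟨g3, g4⟩ := φQ_uniq (W := W) (a := a) (u := 1) (one_mem _) (one_mem _) (by group)
  rw [mul_inv_cancel] at g1 g2
  rw [g3] at g1
  rw [g4, ← inv_eq_of_mul_eq_one_right g1.symm] at g2
  rw [f2, inv_eq_of_mul_eq_one_left g2.symm, ← k2 x hx]
  calc _ = Q W a x * (φ W a x)⁻¹ * (φ W a x * ⁅φ W a x, x⁆) := by rw [← e1]; group
    _ = _ := by rw [(W.c1 2 _ hc _ (W.c2 2 _ hc _ hx)).eq]; group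

theorem B2.onto (ha : a ∈ W.U 1) (h : a ≠ 1) {p : G} (hp : p ∈ W.U 2) : ∃ u ∈ W.U 4, p = φ W a u := by
  obtain ⟨m, r, k, -⟩ := mu1' ha h
  have hu : _ ∈ W.U 4 := (r.inv 2 p).1 hp
  exact ⟨_, hu, by rw [← k _ hu]; group⟩

theorem comm2 {p : G} (hp : p ∈ W.U 2) (hb : b ∈ W.U 2) : ⁅p, b⁆ ∈ V W := by
  obtain ⟨a, ha, a1⟩ := W.ne 1
  obtain ⟨u, hu, rfl⟩ := B2.onto ha a1 hp
  rw [C2 ha hu hb]
  exact inv_mem (Subgroup.commutator_mem_commutator ha (W.c2 2 _ hb _ hu))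

theorem fth (hB : Big W) (ha : a ∈ W.U 1) (hb : b ∈ W.U 1)
    (h : ∀ u ∈ W.U 4, (φ W a u)⁻¹ * φ W b u ∈ V W) : a = b := by
  have hc := mul_mem hb (inv_mem ha)
  refine (mul_inv_eq_one.1 (by_contra fun c1 => hB fun p hp => ?_)).symm
  obtain ⟨u, hu, rfl⟩ := B2.onto hc c1 hp
  have e := (φQ_left hc ha hu).1
  have := h u hu
  rw [inv_mul_cancel_right] at e
  rw [e, mul_assoc, inv_mul_cancel_left] at this
  exact (mul_mem_cancel_left (Subgroup.commutator_mem_commutator hc (Q_mem ha hu))).1 this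

theorem comm1 (hB : Big W) (ha : a ∈ W.U 1) (hb : b ∈ W.U 1) : Commute a b := by
  refine fth hB (mul_mem ha hb) (mul_mem hb ha) fun u hu => ?_
  have v1 : _ ∈ V W := Subgroup.commutator_mem_commutator ha (Q_mem hb hu)
  have v2 : _ ∈ V W := Subgroup.commutator_mem_commutator hb (Q_mem ha hu)
  have hP := φ_mem ha hu
  have hR := φ_mem hb hu
  rw [(φQ_left ha hb hu).1, (φQ_left hb ha hu).1, mul_assoc, (V_comm v1 hP).eq, mul_assoc, (V_comm v2 hR).eq]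
  convert mul_mem (mul_mem (inv_mem v1) (comm2 (inv_mem hP) (inv_mem hR))) v2 using 1
  generalize ⁅a, Q W b u⁆ = x, ⁅b, Q W a u⁆ = y
  group

theorem mu1 (hB : Big W) (ha : a ∈ W.U 1) (h : a ≠ 1) : ∃ m, Rf W 1 m ∧
    (∀ u ∈ W.U 4, m * u * m⁻¹ = φ W a u) ∧ (∀ u ∈ W.U 4, m⁻¹ * u * m = φ W a⁻¹ u) ∧
    (∀ u ∈ W.U 4, m * Q W a⁻¹ u * m⁻¹ = (Q W a u⁻¹)⁻¹) ∧
    (Fl W → ∀ c ∈ W.U 3, Commute m c) := by
  obtain ⟨m, r, k1, k2, ⟨b, hb, k3⟩, k4⟩ := mu1' ha h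
  obtain rfl := fth hB hb (inv_mem ha) fun u hu => by rw [(k3 u hu).1, inv_mul_cancel]; exact one_mem _
  exact ⟨m, r, k1, k2, fun u hu => (k3 u hu).2, k4⟩

theorem B2.big (h : Fl W) : Big W := fun k => by
  obtain ⟨x, hx, x1⟩ := W.ne 2
  have : V W ≤ ⊥ := Subgroup.commutator_le.2 fun a ha c hc => Subgroup.mem_bot.2 (h a ha c hc).commutator_eq
  exact x1 (Subgroup.mem_bot.1 (this (k hx)))

/-- One of the two orientations is good. -/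
theorem ori (W W' : Win G) (h : ∀ n, W'.U n = W.U (5 - n)) :
    (Big W ∧ (Fl W ∨ ¬ Fl' W)) ∨ (Big W' ∧ (Fl W' ∨ ¬ Fl' W')) := by
  have e1 : W'.U 1 = W.U 4 := h 1
  have e2 : W'.U 2 = W.U 3 := h 2
  have e3 : W'.U 3 = W.U 2 := h 3
  have e4 : W'.U 4 = W.U 1 := h 4
  by_cases f : Fl W
  · exact .inl ⟨B2.big f, .inl f⟩
  by_cases f' : Fl W'
  · exact .inr ⟨B2.big f', .inl f'⟩
  by_cases k : Big W
  · exact .inl ⟨k, .inr fun n => f' fun a ha c hc => (n c (e3 ▸ hc) a (e1 ▸ ha)).symm⟩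
  refine .inr ⟨fun k' => f fun a ha c hc => ?_, .inr fun n => f fun a ha c hc => (n c (e2 ▸ hc) a (e4 ▸ ha)).symm⟩
  have : V W' ≤ Subgroup.centralizer {a} := Subgroup.commutator_le.2 fun u hu b hb => by
    rw [e1] at hu
    rw [e3] at hb
    have := C2 ha hu hb
    rw [(V_comm (not_not.1 k (φ_mem ha hu)) hb).commutator_eq, eq_comm, inv_eq_one,
      commutatorElement_eq_one_iff_commute] at this
    rw [← commutatorElement_inv]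
    exact inv_mem (Subgroup.mem_centralizer_singleton_iff.2 this.symm)
  exact (Subgroup.mem_centralizer_singleton_iff.1 (this (k' (e2 ▸ hc)))).symm

end FS4
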