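import Mathlib
import Cfsg.Agent.Lib.FS4.B2

set_option autoImplicit false

open scoped commutatorElement

namespace FS4

open Tits

variable {G : Type*} [Group G] {W : Win G} {K : Type*} [Field K]

theorem C.Q_inv {a u : G} (ha : a ∈ W.U 1) (hu : u ∈ W.U 4) : Q W a⁻¹ u = (Q W a u)⁻¹ := by
  have h1 := (φQ_left ha (inv_mem ha) hu).2
  have h2 := (φQ_uniq (W := W) (a := 1) (u := u) (one_mem _) (one_mem _) (by simp)).2
  rw [mul_inv_cancel, h2] at h1
  exact eq_inv_of_mul_eq_one_left h1.symm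

theorem Fld.co (hB : Big W) {x : K → G} (h : Fld W x) : Nonempty (Co W K) := by
  have x0 : x 0 = 1 := by
    have := h.add 0 0
    rw [add_zero] at this
    exact left_eq_mul.1 this
  have xn : ∀ a, x (-a) = (x a)⁻¹ := fun a =>
    eq_inv_of_mul_eq_one_left (by rw [← h.add, neg_add_cancel, x0])
  have x1 : ∀ a, a ≠ 0 → x a ≠ 1 := fun a ha e => ha (h.inj (e.trans x0.symm))
  have xU : ∀ t, x t ∈ W.U 1 := fun t => by
    rw [← SetLike.mem_coe, ← h.rng]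
    exact ⟨t, rfl⟩
  have xs : ∀ a ∈ W.U 1, ∃ t, x t = a := fun a ha => by
    rw [← SetLike.mem_coe, ← h.rng] at ha
    exact ha
  have hm : ∀ a : K, ∃ m, a ≠ 0 → Rf W 1 m ∧
      (∀ u ∈ W.U 4, m * u * m⁻¹ = φ W (x a) u) ∧ (∀ u ∈ W.U 4, m⁻¹ * u * m = φ W (x a)⁻¹ u) ∧
      (∀ u ∈ W.U 4, m * Q W (x a)⁻¹ u * m⁻¹ = (Q W (x a) u⁻¹)⁻¹) ∧
      (Fl W → ∀ c ∈ W.U 3, Commute m c) := fun a => by
    by_cases ha : a = 0
    · exact ⟨1, fun e => absurd ha e⟩
    · obtain ⟨m, hm⟩ := mu1 hB (xU a) (x1 a ha)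
      exact ⟨m, fun _ => hm⟩
  choose m hm using hm
  obtain ⟨d, hd, d1⟩ := W.ne 4
  obtain ⟨n, rn, hn⟩ := mu4 hd d1
  have r4 : ∀ u, u ∈ W.U 4 ↔ m 1 * u * (m 1)⁻¹ ∈ W.U 2 := fun u => by
    have := (hm 1 one_ne_zero).1 4 u
    rwa [show (2 * 1 + 4 - 4 : ZMod 8) = 2 by decide] at this
  have r3 : ∀ a, a ≠ 0 → ∀ u, u ∈ W.U 3 ↔ m a * u * (m a)⁻¹ ∈ W.U 3 := fun a ha u => by
    have := (hm a ha).1 3 u
    rwa [show (2 * 1 + 4 - 3 : ZMod 8) = 3 by decide] at this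
  have r1 : ∀ u, u ∈ W.U 1 ↔ n * u * n⁻¹ ∈ W.U 3 := fun u => by
    have := rn 1 u
    rwa [show (2 * 4 + 4 - 1 : ZMod 8) = 3 by decide] at this
  obtain ⟨y, hy⟩ : ∃ y : W.U 4 →* G, ∀ u, y u = m 1 * u * (m 1)⁻¹ :=
    ⟨(MulAut.conj (m 1)).toMonoidHom.comp (W.U 4).subtype, fun _ => rfl⟩
  obtain ⟨z, hz⟩ : ∃ z : K → G, ∀ t, z t = n * (x t)⁻¹ * n⁻¹ := ⟨_, fun _ => rfl⟩
  have yi : Function.Injective y := fun u v e => by
    rw [hy, hy] at e
    exact Subtype.ext (mul_left_cancel (mul_right_cancel e))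
  have zi : Function.Injective z := fun s t e => by
    rw [hz, hz] at e
    exact h.inj (inv_injective (mul_left_cancel (mul_right_cancel e)))
  have yU : ∀ u, y u ∈ W.U 2 := fun u => by rw [hy]; exact (r4 u).1 u.2
  have zU : ∀ t, z t ∈ W.U 3 := fun t => by rw [hz]; exact (r1 _).1 (inv_mem (xU t))
  have ys : ∀ p ∈ W.U 2, ∃ u, y u = p := fun p hp =>
    ⟨⟨(m 1)⁻¹ * p * m 1, (r4 _).2 (by simpa [mul_assoc] using hp)⟩, by rw [hy]; simp [mul_assoc]⟩
  have zs : ∀ c ∈ W.U 3, ∃ t, z t = c := fun c hc => by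
    obtain ⟨t, ht⟩ := xs (n⁻¹ * c * n)⁻¹ (inv_mem ((r1 _).2 (by simpa [mul_assoc] using hc)))
    exact ⟨t, by rw [hz, ht]; group⟩
  choose act hact using fun (t : K) (u : W.U 4) => ys _ (φ_mem (xU t) u.2)
  choose T hT using fun (u : W.U 4) (t : K) => zs _ (Q_mem (xU t) u.2)
  choose f hf using fun (u v : W.U 4) => zs _ (W.c2 2 _ (yU u) _ v.2)
  choose Γ hΓ using fun (t s : K) => ys _ (W.c2 1 _ (xU t) _ (zU s))
  have hν : ∀ a s : K, ∃ r, a ≠ 0 → z r = m a * z s * (m a)⁻¹ := fun a s => by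
    by_cases ha : a = 0
    · exact ⟨0, fun e => absurd ha e⟩
    · obtain ⟨r, hr⟩ := zs _ ((r3 a ha _).1 (zU s))
      exact ⟨r, fun _ => hr⟩
  choose ν hν using hν
  have y1 : ∀ u : W.U 4, φ W (x 1) u = y u := fun u => by rw [hy, (hm 1 one_ne_zero).2.1 u u.2]
  exact ⟨{
    x := x, z := z, y := y, act := act, T := T, f := f, Γ := Γ, ν := ν, m := m, d := ⟨d, hd⟩
    x_add := h.add
    z_add := fun s t => by rw [hz, hz, hz, add_comm, h.add]; group
    x_inj := h.inj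
    z_inj := zi
    y_inj := yi
    x_rng := h.rng
    y_rng := Set.ext fun p => ⟨by rintro ⟨u, rfl⟩; exact yU u, ys p⟩
    z_rng := Set.ext fun c => ⟨by rintro ⟨t, rfl⟩; exact zU t, zs c⟩
    c13 := fun t s => (hΓ t s).symm
    c24 := fun u v => (hf u v).symm
    c14 := fun t u => by rw [hact, hT, φQ (xU t) u.2]
    d_ne := fun e => d1 (congrArg Subtype.val e)
    Td := fun t => zi (by rw [hT, hz, hn _ (xU t)])
    act_one := fun u => yi (by rw [hact, y1])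
    rf := fun a ha => (hm a ha).1
    m4 := fun a ha u => by rw [hact, (hm a ha).2.1 u u.2]
    m4' := fun a ha u => by rw [hact, xn, (hm a ha).2.2.1 u u.2]
    m3 := fun a ha s => (hν a s ha).symm
    mT := fun a ha u => zi (by
      have := (hm a ha).2.2.2.1 u u.2
      rw [C.Q_inv (xU a) u.2] at this
      rw [hν a _ ha, hT, hT, ← inv_inj, Subgroup.coe_inv, ← this]
      group)
    mfl := fun hF a ha s => zi (by
      rw [hν a s ha, ((hm a ha).2.2.2.2 hF _ (zU s)).eq, mul_inv_cancel_right])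
    mul := fun s t u => by
      rw [hact, hact]
      exact h.mul s t u u.2 _ (act t u).2 (by rw [y1, hact])
    fth := fun s t e => h.inj (fth hB (xU s) (xU t) fun u hu => by
      have := e ⟨u, hu⟩
      rwa [hact, hact] at this)
    n4 := fun u u1 => by
      obtain ⟨n', rn', hn'⟩ := mu4 u.2 fun e => u1 (Subtype.ext e)
      exact ⟨n', rn', fun t => by rw [hT, hn' _ (xU t)]⟩ }⟩

end FS4
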