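import Mathlib

/-! A finite special Jordan division algebra is a field. -/

set_option autoImplicit false

namespace FS4

open Polynomial

namespace J

/-- the generic element of a space of matrices -/
noncomputable def gen {F : Type*} [Field F] {k n : Type} [Fintype k] (a : k → Matrix n n F) :
    Matrix n n (MvPolynomial k F) := ∑ i, (MvPolynomial.X i : MvPolynomial k F) • (a i).map MvPolynomial.C

theorem eqns_J : True := by
  have := @gen.eq_1.{0}
  trivial

section
variable {F : Type*} [Field F] {k n : Type} [Fintype k] [Fintype n] [DecidableEq n]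
  (a : k → Matrix n n F)

omit [Fintype n] [DecidableEq n] in
theorem gen_map {S : Type*} [CommRing S] (f : MvPolynomial k F →+* S) :
    (gen a).map f = ∑ i, f (MvPolynomial.X i) • (a i).map (f.comp MvPolynomial.C) := by
  ext r s
  simp [gen, Matrix.sum_apply]

/-- the constant term of a monic factor of the generic characteristic polynomial has small degree -/
theorem deg_le {g : (MvPolynomial k F)[X]} (hg : g.Monic) (h : g ∣ (gen a).charpoly) :
    (g.coeff 0).totalDegree ≤ g.natDegree := by
  obtain ⟨q, hq⟩ := h
  let e := MvPolynomial.optionEquivLeft F k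
  have hm := (gen a).charpoly_monic
  have q0 : q ≠ 0 := fun e => hm.ne_zero (by rw [hq, e, mul_zero])
  have dn : g.natDegree + q.natDegree = Fintype.card n := by
    rw [← natDegree_mul hg.ne_zero q0, ← hq, Matrix.charpoly_natDegree_eq_dim]
  have td : (e.symm (gen a).charpoly).totalDegree ≤ Fintype.card n := by
    rw [Matrix.charpoly, AlgEquiv.map_det, Matrix.det_apply]
    refine MvPolynomial.totalDegree_finsetSum_le fun σ _ => ?_
    refine le_trans ?_ ((MvPolynomial.totalDegree_finsetProd Finset.univ fun i =>
      (e.symm.mapMatrix (gen a).charmatrix) (σ i) i).trans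
      (Finset.sum_le_card_nsmul _ _ 1 fun i _ => ?_) |>.trans (by simp))
    · rcases Int.units_eq_one_or (Equiv.Perm.sign σ) with k | k <;> simp [k]
    · have hX : e.symm X = MvPolynomial.X none :=
        e.symm_apply_eq.2 (MvPolynomial.optionEquivLeft_X_none F k).symm
      have hC : ∀ r s, (e.symm (C (gen a r s))).totalDegree ≤ 1 := fun r s => by
        have : e.symm (C (gen a r s)) =
            ∑ j, MvPolynomial.X (some j) * MvPolynomial.C (a j r s) := by
          rw [e.symm_apply_eq]
          simp [e, gen, Matrix.sum_apply, MvPolynomial.optionEquivLeft_X_some,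
            MvPolynomial.optionEquivLeft_C]
        rw [this]
        exact MvPolynomial.totalDegree_finsetSum_le fun j _ => (MvPolynomial.totalDegree_mul _ _).trans
          (by rw [MvPolynomial.totalDegree_X, MvPolynomial.totalDegree_C])
      rw [AlgEquiv.mapMatrix_apply, Matrix.map_apply, Matrix.charmatrix_apply, map_sub]
      refine (MvPolynomial.totalDegree_sub _ _).trans (max_le ?_ (hC _ _))
      rw [Matrix.diagonal_apply]
      split_ifs
      · rw [hX, MvPolynomial.totalDegree_X]
      · simp
  have le : ∀ p : (MvPolynomial k F)[X], p.natDegree ≤ (e.symm p).totalDegree := fun p => by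
    conv_lhs => rw [← e.apply_symm_apply p]
    rw [MvPolynomial.natDegree_optionEquivLeft]
    exact MvPolynomial.degreeOf_le_totalDegree _ _
  rw [hq, map_mul, MvPolynomial.totalDegree_mul_of_isDomain (by simpa using hg.ne_zero)
    (by simpa using q0)] at td
  have := MvPolynomial.totalDegree_coeff_optionEquivLeft_le F k (e.symm g) 0
  rw [e.apply_symm_apply] at this
  have := le q
  omega

theorem exists_sing [Finite F] [Nonempty n] (L : Type*) [Field L] [Algebra (MvPolynomial k F) L]
    [IsFractionRing (MvPolynomial k F) L]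
    (h : (minpoly L ((gen a).map (algebraMap _ L))).natDegree < Fintype.card k) :
    ∃ c : k → F, c ≠ 0 ∧ (∑ i, c i • a i).det = 0 := by
  classical
  let _ := Fintype.ofFinite F
  obtain ⟨p, hp⟩ := CharP.exists F
  have pp : p.Prime := CharP.char_is_prime F p
  have hi : IsIntegral L ((gen a).map (algebraMap (MvPolynomial k F) L)) := .of_finite _ _
  have hd := Matrix.minpoly_dvd_charpoly ((gen a).map (algebraMap (MvPolynomial k F) L))
  rw [Matrix.charpoly_map] at hd
  obtain ⟨g, hg⟩ := IsIntegrallyClosed.eq_map_mul_C_of_dvd L (gen a).charpoly_monic hd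
  rw [(minpoly.monic hi).leadingCoeff, C_1, mul_one] at hg
  have inj := IsFractionRing.injective (MvPolynomial k F) L
  have gm : g.Monic := monic_of_injective inj (hg ▸ minpoly.monic hi)
  have dv : g ∣ (gen a).charpoly :=
    (gen a).charpoly_monic.dvd_of_fraction_map_dvd_fraction_map gm (hg ▸ hd)
  have gd := natDegree_map_eq_of_injective inj g
  rw [hg] at gd
  have ev : ∀ c : k → F, g.map (MvPolynomial.eval c) ∣ (∑ i, c i • a i).charpoly := fun c => by
    have := map_dvd (mapRingHom (MvPolynomial.eval c)) dv
    rw [coe_mapRingHom, ← Matrix.charpoly_map, gen_map] at this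
    convert this using 4 with i
    · simp
    · ext r s; simp
  have cw := char_dvd_card_solutions p (((deg_le a gm dv).trans gd.ge).trans_lt h)
  by_contra! no
  have : Fintype.card {x : k → F // MvPolynomial.eval x (g.coeff 0) = 0} = 1 := by
    refine Fintype.card_eq_one_iff.2 ⟨⟨0, ?_⟩, fun ⟨x, hx⟩ => Subtype.ext ?_⟩
    · have := ev 0
      simp only [Pi.zero_apply, zero_smul, Finset.sum_const_zero, Matrix.charpoly_zero] at this
      obtain ⟨i, -, hi'⟩ := (dvd_prime_pow prime_X _).1 this
      have i0 : i ≠ 0 := fun e => by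
        have := natDegree_eq_of_degree_eq (degree_eq_degree_of_associated hi')
        rw [gm.natDegree_map, e, pow_zero, natDegree_one, ← gd] at this
        exact (minpoly.natDegree_pos hi).ne' this
      rw [← coeff_map, ← X_dvd_iff]
      exact (dvd_pow_self X i0).trans hi'.symm.dvd
    · by_contra x0
      refine no x x0 ?_
      obtain ⟨q, hq⟩ := ev x
      rw [Matrix.det_eq_sign_charpoly_coeff, hq, mul_coeff_zero, coeff_map, hx, zero_mul, mul_zero]
  exact pp.one_lt.ne' (Nat.dvd_one.1 (this ▸ cw))

end

section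
variable {L S : Type*} [Field L] [Ring S] [Algebra L S] {s : Set S}

theorem span_U (hU : ∀ a ∈ s, ∀ b ∈ s, a * b * a ∈ s) (ha : ∀ a ∈ s, ∀ b ∈ s, a + b ∈ s) {x y : S}
    (hx : x ∈ Submodule.span L s) (hy : y ∈ Submodule.span L s) :
    x * y * x ∈ Submodule.span L s := by
  have U : ∀ a ∈ s, a * y * a ∈ Submodule.span L s := fun a h => by
    induction hy using Submodule.span_induction with
    | mem b hb => exact Submodule.subset_span (hU a h b hb)
    | zero => simp
    | add b c _ _ h1 h2 => rw [mul_add, add_mul]; exact add_mem h1 h2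
    | smul c b _ h1 => rw [mul_smul_comm, smul_mul_assoc]; exact Submodule.smul_mem _ _ h1
  have T : ∀ a ∈ Submodule.span L s, ∀ b ∈ Submodule.span L s,
      a * y * b + b * y * a ∈ Submodule.span L s := fun a h b h' => by
    induction h, h' using Submodule.span_induction₂ with
    | mem_mem a b h h' =>
      rw [show a * y * b + b * y * a = (a + b) * y * (a + b) - a * y * a - b * y * b by noncomm_ring]
      exact sub_mem (sub_mem (U _ (ha a h b h')) (U a h)) (U b h')
    | zero_left => simp
    | zero_right => simp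
    | add_left a b c _ _ _ h1 h2 => convert add_mem h1 h2 using 1; noncomm_ring
    | add_right a b c _ _ _ h1 h2 => convert add_mem h1 h2 using 1; noncomm_ring
    | smul_left r a b _ _ h1 =>
      rw [smul_mul_assoc, smul_mul_assoc, mul_smul_comm, ← smul_add]; exact Submodule.smul_mem _ _ h1
    | smul_right r a b _ _ h1 =>
      rw [smul_mul_assoc, smul_mul_assoc, mul_smul_comm, ← smul_add]; exact Submodule.smul_mem _ _ h1
  induction hx using Submodule.span_induction with
  | mem a h => exact U a h
  | zero => simp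
  | add a b h h' h1 h2 => convert add_mem (add_mem h1 h2) (T a h b h') using 1; noncomm_ring
  | smul c a _ h1 =>
    rw [smul_mul_assoc, smul_mul_assoc, mul_smul_comm]
    exact Submodule.smul_mem _ _ (Submodule.smul_mem _ _ h1)

theorem comm_of [Module.Finite L S] {Y : Submodule L S} {x : S} (hp : ∀ i : ℕ, x ^ i ∈ Y)
    (hd : Module.finrank L Y ≤ (minpoly L x).natDegree) {a b : S} (ha : a ∈ Y) (hb : b ∈ Y) :
    Commute a b := by
  have e : Submodule.span L (Set.range fun i : Fin (minpoly L x).natDegree => x ^ (i : ℕ)) = Y :=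
    Submodule.eq_of_le_of_finrank_le (Submodule.span_le.2 (by rintro _ ⟨i, rfl⟩; exact hp i)) (by
      rwa [finrank_span_eq_card (linearIndependent_pow x), Fintype.card_fin])
  rw [← e] at ha hb
  induction ha, hb using Submodule.span_induction₂ with
  | mem_mem a b h h' =>
    obtain ⟨i, rfl⟩ := h
    obtain ⟨j, rfl⟩ := h'
    exact Commute.pow_pow_self _ _ _
  | zero_left => exact Commute.zero_left _
  | zero_right => exact Commute.zero_right _
  | add_left a b c _ _ _ h1 h2 => exact h1.add_left h2
  | add_right a b c _ _ _ h1 h2 => exact h1.add_right h2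
  | smul_left r a b _ _ h1 => exact h1.smul_left r
  | smul_right r a b _ _ h1 => exact h1.smul_right r

end

theorem comm_alg {F R : Type*} [Field F] [Finite F] [Ring R] [Nontrivial R] [Algebra F R]
    [Module.Finite F R] (A : Submodule F R) (h1 : (1 : R) ∈ A)
    (hU : ∀ a ∈ A, ∀ b ∈ A, a * b * a ∈ A) (hu : ∀ a ∈ A, a ≠ 0 → IsUnit a) {u v : R} (hu' : u ∈ A)
    (hv : v ∈ A) : u * v = v * u := by
  classical
  let bR := Module.finBasis F R
  let bA := Module.finBasis F A
  have : Nonempty (Fin (Module.finrank F R)) := ⟨⟨0, Module.finrank_pos⟩⟩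
  let ι := Algebra.leftMulMatrix bR
  let a := fun i => ι (bA i)
  let P := MvPolynomial (Fin (Module.finrank F A)) F
  let L := FractionRing P
  let f : F →+* L := (algebraMap P L).comp MvPolynomial.C
  let ψ : R →+* Matrix _ _ L := f.mapMatrix.comp ι.toRingHom
  have inj : Function.Injective ψ :=
    (Matrix.map_injective f.injective).comp (Algebra.leftMulMatrix_injective bR)
  let Y := Submodule.span L (ψ '' A)
  have mY : ∀ x ∈ A, ψ x ∈ Y := fun x hx => Submodule.subset_span ⟨x, hx, rfl⟩
  have hX : (gen a).map (algebraMap P L) ∈ Y := by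
    rw [gen_map]
    exact Submodule.sum_mem _ fun i _ => Submodule.smul_mem _ _ (mY _ (bA i).2)
  have hp : ∀ i : ℕ, (gen a).map (algebraMap P L) ^ i ∈ Y := fun i => by
    induction i using Nat.twoStepInduction with
    | zero => simpa using mY 1 h1
    | one => rwa [pow_one]
    | more i h _ =>
      rw [pow_succ, pow_succ']
      refine span_U ?_ ?_ hX h
      · rintro _ ⟨x, hx, rfl⟩ _ ⟨y, hy, rfl⟩
        exact ⟨_, hU x hx y hy, by rw [map_mul, map_mul]⟩
      · rintro _ ⟨x, hx, rfl⟩ _ ⟨y, hy, rfl⟩
        exact ⟨_, add_mem hx hy, map_add _ _ _⟩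
  have sm : ∀ c : Fin (Module.finrank F A) → F,
      ∑ i, c i • a i = ι (bA.equivFun.symm c : A) := fun c => by
    rw [Module.Basis.equivFun_symm_apply]; simp [a]
  have hY : Module.finrank L Y ≤ Module.finrank F A := by
    refine le_trans (Submodule.finrank_mono (Submodule.span_le.2 ?_))
      ((finrank_range_le_card (R := L) fun i => ψ (bA i)).trans (Fintype.card_fin _).le)
    rintro _ ⟨x, hx, rfl⟩
    have : ψ x = ∑ i, f (bA.equivFun ⟨x, hx⟩ i) • ψ (bA i) := by
      have := sm (bA.equivFun ⟨x, hx⟩)
      rw [LinearEquiv.symm_apply_apply] at this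
      change f.mapMatrix (ι x) = _
      rw [← this]
      ext r s
      simp [ψ, a, Matrix.sum_apply]
    rw [this]
    exact Submodule.sum_mem _ fun i _ => Submodule.smul_mem _ _ (Submodule.subset_span ⟨i, rfl⟩)
  refine inj ?_
  rw [map_mul, map_mul]
  refine comm_of hp (hY.trans (not_lt.1 fun h => ?_)) (mY u hu') (mY v hv)
  obtain ⟨c, c0, hc⟩ := exists_sing a L (by rwa [Fintype.card_fin])
  have := (hu _ (bA.equivFun.symm c).2 fun e =>
    c0 (bA.equivFun.symm.map_eq_zero_iff.1 (Subtype.ext e))).map ι
  rw [← sm, Matrix.isUnit_iff_isUnit_det, hc] at this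
  exact not_isUnit_zero this

end J

/-- A finite special Jordan division algebra is a field. -/
theorem jordan {R : Type*} [Ring R] [Finite R] (A : AddSubgroup R) (h1 : (1 : R) ∈ A)
    (hU : ∀ a ∈ A, ∀ b ∈ A, a * b * a ∈ A) (hu : ∀ a ∈ A, a ≠ 0 → IsUnit a) :
    ∀ a ∈ A, ∀ b ∈ A, a * b = b * a ∧ a * b ∈ A := by
  rcases subsingleton_or_nontrivial R with _ | _
  · exact fun a ha b _ => ⟨Subsingleton.elim _ _, Subsingleton.elim a (a * b) ▸ ha⟩
  have c0 : ringChar R ≠ 0 := CharP.char_ne_zero_of_finite R _
  have pp := Nat.minFac_prime (CharP.ringChar_ne_one (R := R))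
  have p0 : ((ringChar R).minFac : R) = 0 := by
    by_contra h
    obtain ⟨m, hm⟩ := Nat.minFac_dvd (ringChar R)
    have h2 : ((ringChar R).minFac : R) * m = 0 := by rw [← Nat.cast_mul, ← hm, ringChar.Nat.cast_ringChar]
    rw [(hu _ (by simpa using A.nsmul_mem h1 (ringChar R).minFac) h).mul_right_eq_zero,
      ringChar.spec] at h2
    have m0 : 0 < m := Nat.pos_of_ne_zero (by rintro rfl; exact c0 hm)
    have := Nat.le_of_dvd m0 h2
    have := pp.two_le
    nlinarith
  generalize (ringChar R).minFac = p at pp p0
  have := Fact.mk pp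
  have := (CharP.charP_iff_prime_eq_zero pp).2 p0
  let _ := ZMod.algebra R p
  have cm : ∀ a ∈ A, ∀ b ∈ A, a * b = b * a := fun a ha b hb =>
    J.comm_alg (AddSubgroup.toZModSubmodule p A) h1 hU hu ha hb
  refine fun a ha b hb => ⟨cm a ha b hb, ?_⟩
  by_cases h2 : (1 + 1 : R) = 0
  · obtain ⟨c, hc⟩ := Finite.surjective_of_injective
      (f := fun c : A => (⟨c * 1 * c, hU _ c.2 _ h1⟩ : A)) (fun c d e => by
        have e' : (c : R) * 1 * c = d * 1 * d := congrArg Subtype.val e
        by_contra ne
        have u := hu _ (sub_mem c.2 d.2) (sub_ne_zero.2 fun k => ne (Subtype.ext k))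
        refine u.ne_zero (u.mul_right_eq_zero.1 ?_)
        have := cm _ c.2 _ d.2
        calc ((c : R) - d) * (c - d) = c * 1 * c - d * 1 * d + (c * d - d * c) +
            (1 + 1) * (d * d - c * d) := by noncomm_ring
          _ = 0 := by rw [e', this, h2]; simp) ⟨a, ha⟩
    have e : (c : R) * 1 * c = a := congrArg Subtype.val hc
    rw [← e, mul_one, mul_assoc, cm _ c.2 _ hb, ← mul_assoc]
    exact hU _ c.2 _ hb
  · have m : (1 + 1) * (a * b) ∈ A := by
      rw [show (1 + 1) * (a * b) = (a + 1) * b * (a + 1) - a * b * a - b + (a * b - b * a) by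
        noncomm_ring, cm a ha b hb, sub_self, add_zero, ← cm a ha b hb]
      exact sub_mem (sub_mem (hU _ (add_mem ha h1) _ hb) (hU _ ha _ hb)) hb
    have u := hu _ (add_mem h1 h1) h2
    obtain ⟨c, hc⟩ := Finite.surjective_of_injective
      (f := fun c : A => (⟨(1 + 1) * c, by rw [add_mul, one_mul]; exact add_mem c.2 c.2⟩ : A))
      (fun c d e => Subtype.ext (u.mul_left_cancel (congrArg Subtype.val e))) ⟨_, m⟩
    exact u.mul_left_cancel (congrArg Subtype.val hc) ▸ c.2

end FS4
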