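import Mathlib
import Cfsg.Agent.Lib.FS4.B2
import Cfsg.Agent.Lib.FS4.J

/-! Finite Moufang quadrangles: the root group `U₁` is a field. -/

set_option autoImplicit false

open scoped commutatorElement

namespace FS4

open Tits

universe u

variable {G : Type u} [Group G] {W : Win G}

theorem Fld.congr {K K' : Type*} [Field K] [Field K'] {x : K → G} (h : Fld W x) (τ : K' ≃+* K) :
    Fld W fun t => x (τ t) :=
  ⟨fun s t => by rw [map_add, h.add], h.inj.comp τ.injective,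
    (τ.surjective.range_comp x).trans h.rng, fun s t u hu u' hu' e => by
      rw [map_one] at e
      rw [map_mul]
      exact h.mul _ _ u hu u' hu' e⟩

namespace F

/-- the abelian group `U₂ / V₂` -/
theorem exists_cl [Finite G] (W : Win G) : ∃ (X : Type u) (_ : AddCommGroup X) (_ : Finite X)
    (cl : G → X), (∀ p ∈ W.U 2, ∀ q ∈ W.U 2, cl (p * q) = cl p + cl q) ∧
    (∀ p ∈ W.U 2, cl p = 0 ↔ p ∈ V W) ∧ ∀ x, ∃ p ∈ W.U 2, cl p = x := by
  classical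
  have : ((V W).subgroupOf (W.U 2)).Normal := ⟨fun n hn g => by
    rw [Subgroup.mem_subgroupOf] at hn ⊢
    have := (V_comm hn g.2).symm.eq
    simpa [this] using hn⟩
  let _ : CommGroup (W.U 2 ⧸ (V W).subgroupOf (W.U 2)) :=
    { QuotientGroup.Quotient.group _ with
      mul_comm := fun a b => QuotientGroup.induction_on a fun a => QuotientGroup.induction_on b fun b => by
        rw [← QuotientGroup.mk_mul, ← QuotientGroup.mk_mul, QuotientGroup.eq, Subgroup.mem_subgroupOf]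
        have := comm2 (inv_mem b.2) (inv_mem a.2)
        simpa [commutatorElement_def, mul_assoc] using this }
  refine ⟨Additive (W.U 2 ⧸ (V W).subgroupOf (W.U 2)), inferInstance, inferInstance,
    fun p => if h : p ∈ W.U 2 then Additive.ofMul (QuotientGroup.mk ⟨p, h⟩) else 0,
    fun p hp q hq => ?_, fun p hp => ?_, fun x => ?_⟩
  · simp only [dif_pos hp, dif_pos hq, dif_pos (mul_mem hp hq)]
    rfl
  · simp only [dif_pos hp]
    exact QuotientGroup.eq_one_iff (N := (V W).subgroupOf (W.U 2)) _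
  · obtain ⟨p, rfl⟩ := QuotientGroup.mk_surjective (Additive.toMul x : W.U 2 ⧸ _) |>.imp
      fun p h => (congrArg Additive.ofMul h :)
    exact ⟨p, p.2, dif_pos p.2⟩

variable {X : Type*} [AddCommGroup X] {cl : G → X}
  (c1 : ∀ p ∈ W.U 2, ∀ q ∈ W.U 2, cl (p * q) = cl p + cl q) (c2 : ∀ p ∈ W.U 2, cl p = 0 ↔ p ∈ V W)
  (c3 : ∀ x, ∃ p ∈ W.U 2, cl p = x)
include c1 c2

theorem cl_eq {p q : G} (hp : p ∈ W.U 2) (hq : q ∈ W.U 2) : cl p = cl q ↔ p⁻¹ * q ∈ V W := by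
  have := c1 p hp _ (mul_mem (inv_mem hp) hq)
  rw [mul_inv_cancel_left] at this
  rw [← c2 _ (mul_mem (inv_mem hp) hq), this, left_eq_add]

include c3

theorem lift {f : G → G} (f1 : ∀ p ∈ W.U 2, f p ∈ W.U 2)
    (f2 : ∀ p ∈ W.U 2, ∀ q ∈ W.U 2, f (p * q) = f p * f q) (f3 : ∀ p ∈ V W, f p ∈ V W) :
    ∃ α : AddMonoid.End X, ∀ p ∈ W.U 2, α (cl p) = cl (f p) := by
  have wd : ∀ p ∈ W.U 2, ∀ q ∈ W.U 2, cl p = cl q → cl (f p) = cl (f q) := fun p hp q hq e => by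
    have h := mul_mem (inv_mem hp) hq
    have := f2 p hp _ h
    rw [mul_inv_cancel_left] at this
    rw [this, c1 _ (f1 p hp) _ (f1 _ h), (c2 _ (f1 _ h)).2 (f3 _ ((cl_eq c1 c2 hp hq).1 e)), add_zero]
  choose s s1 s2 using c3
  refine ⟨AddMonoidHom.mk' (fun x => cl (f (s x))) fun x y => ?_, fun p hp => wd _ (s1 _) p hp (s2 _)⟩
  rw [← c1 _ (f1 _ (s1 x)) _ (f1 _ (s1 y)), ← f2 _ (s1 x) _ (s1 y)]
  exact wd _ (s1 _) _ (mul_mem (s1 x) (s1 y)) (by rw [s2, c1 _ (s1 x) _ (s1 y), s2, s2])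

theorem lift_tor {h : G} (hh : Tor W h) :
    ∃ α : AddMonoid.End X, IsUnit α ∧ ∀ p ∈ W.U 2, α (cl p) = cl (h * p * h⁻¹) := by
  have L : ∀ {h : G}, Tor W h → ∃ α : AddMonoid.End X, ∀ p ∈ W.U 2, α (cl p) = cl (h * p * h⁻¹) :=
    fun hh => lift c1 c2 c3 (fun p hp => (hh 2 p).1 hp) (fun p _ q _ => by group) fun p hp => hh.V.1 hp
  obtain ⟨α, hα⟩ := L hh
  obtain ⟨β, hβ⟩ := L hh.inv
  refine ⟨α, ⟨⟨α, β, AddMonoidHom.ext fun x => ?_, AddMonoidHom.ext fun x => ?_⟩, rfl⟩, hα⟩ <;>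
    obtain ⟨p, hp, rfl⟩ := c3 x
  · change α (β (cl p)) = cl p
    rw [hβ p hp, hα _ ((hh.inv 2 p).1 hp)]; congr 1; group
  · change β (α (cl p)) = cl p
    rw [hα p hp, hβ _ ((hh 2 p).1 hp)]; congr 1; group

end F

theorem exists_fld [Finite G] (hB : Big W) :
    ∃ (K : Type) (_ : Field K) (_ : Fintype K) (x : K → G), Fld W x := by
  obtain ⟨X, _, _, cl, c1, c2, c3⟩ := F.exists_cl W
  obtain ⟨e, he, e1⟩ := W.ne 1
  obtain ⟨m, rm, m1, m2, -⟩ := mu1 hB he e1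
  have on : ∀ p ∈ W.U 2, m⁻¹ * p * m ∈ W.U 4 := fun p hp =>
    (rm 4 _).2 (by simpa [mul_assoc] using (show p ∈ W.U (2 * 1 + 4 - 4) from hp))
  have ext : ∀ {α β : AddMonoid.End X}, (∀ u ∈ W.U 4, α (cl (φ W e u)) = β (cl (φ W e u))) → α = β :=
    fun h => AddMonoidHom.ext fun x => by
    obtain ⟨p, hp, rfl⟩ := c3 x
    have := h _ (on p hp)
    rw [← m1 _ (on p hp), show m * (m⁻¹ * p * m) * m⁻¹ = p by group] at this
    exact this
  have tor : ∀ a ∈ W.U 1, a ≠ 1 → ∃ h, Tor W h ∧ ∀ u ∈ W.U 4, φ W a u = h * φ W e u * h⁻¹ ∧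
      φ W a⁻¹ (h * u * h⁻¹) = φ W e⁻¹ u := fun a ha a1 => by
    obtain ⟨n, rn, n1, n2, -⟩ := mu1 hB ha a1
    have t := rn.tor rm.inv
    refine ⟨_, t, fun u hu => ⟨?_, ?_⟩⟩
    · rw [← n1 u hu, ← m1 u hu]; group
    · rw [← n2 _ ((t 4 u).1 hu), ← m2 u hu]; group
  have ex : ∀ a ∈ W.U 1, ∃ α : AddMonoid.End X, ∀ u ∈ W.U 4, α (cl (φ W e u)) = cl (φ W a u) :=
    fun a ha => by
    by_cases a1 : a = 1
    · refine ⟨0, fun u _ => ?_⟩
      rw [a1, (φQ_uniq (a := 1) (one_mem _) (one_mem _) (by simp)).1, (c2 1 (one_mem _)).2 (one_mem _)]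
      rfl
    · obtain ⟨h, t, k⟩ := tor a ha a1
      obtain ⟨α, -, hα⟩ := F.lift_tor c1 c2 c3 t
      exact ⟨α, fun u hu => by rw [hα _ (φ_mem he hu), (k u hu).1]⟩
  choose! bar hb using ex
  have b1 : bar e = 1 := ext fun u hu => hb e he u hu
  have ad : ∀ a ∈ W.U 1, ∀ b ∈ W.U 1, bar (a * b) = bar a + bar b := fun a ha b hb' => ext fun u hu => by
    have v : ⁅a, Q W b u⁆ ∈ V W := Subgroup.commutator_mem_commutator ha (Q_mem hb' hu)
    change _ = bar a _ + bar b _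
    rw [hb _ (mul_mem ha hb') u hu, hb a ha u hu, hb b hb' u hu, (φQ_left ha hb' hu).1,
      c1 _ (mul_mem (φ_mem hb' hu) (V_le v)) _ (φ_mem ha hu), c1 _ (φ_mem hb' hu) _ (V_le v),
      (c2 _ (V_le v)).2 v, add_zero, add_comm]
  have inj : ∀ a ∈ W.U 1, ∀ b ∈ W.U 1, bar a = bar b → a = b := fun a ha b hb' k =>
    fth hB ha hb' fun u hu => (F.cl_eq c1 c2 (φ_mem ha hu) (φ_mem hb' hu)).1 (by
      rw [← hb a ha u hu, k, hb b hb' u hu])
  have b0 : bar 1 = 0 := by simpa using ad 1 (one_mem _) 1 (one_mem _)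
  have ng : ∀ a ∈ W.U 1, bar a⁻¹ = -bar a := fun a ha =>
    eq_neg_of_add_eq_zero_left (by rw [← ad _ (inv_mem ha) a ha, inv_mul_cancel, b0])
  have un : ∀ a ∈ W.U 1, a ≠ 1 → IsUnit (bar a) ∧
      ∀ b ∈ W.U 1, ∃ c ∈ W.U 1, bar c = bar a * bar b * bar a := fun a ha a1 => by
    obtain ⟨h, t, k⟩ := tor a ha a1
    obtain ⟨α, u, hα⟩ := F.lift_tor c1 c2 c3 t
    obtain rfl : bar a = α := ext fun u hu => by rw [hα _ (φ_mem he hu), ← (k u hu).1, hb a ha u hu]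
    refine ⟨u, fun b hb' => ⟨_, (t 1 b).1 hb', ext fun u' hu' => ?_⟩⟩
    obtain ⟨u, hu, rfl⟩ : ∃ u ∈ W.U 4, u' = h * u * h⁻¹ := ⟨_, (t.inv 4 u').1 hu', by group⟩
    have : bar a (cl (φ W e (h * u * h⁻¹))) = cl (φ W e u) := by
      have k1 := hb _ (inv_mem ha) _ hu'
      rw [(k u hu).2, ← hb _ (inv_mem he) u hu, ng a ha, ng e he, b1] at k1
      exact neg_injective k1
    change _ = bar a (bar b (bar a _))
    rw [this, hb b hb' u hu, hα _ (φ_mem hb' hu), hb _ ((t 1 b).1 hb') _ hu', (φQ_conj t hb' hu).1]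
  let A : AddSubgroup (AddMonoid.End X) :=
    { carrier := bar '' W.U 1
      zero_mem' := ⟨1, one_mem _, b0⟩
      add_mem' := by
        rintro _ _ ⟨a, ha, rfl⟩ ⟨b, hb', rfl⟩
        exact ⟨_, mul_mem ha hb', ad a ha b hb'⟩
      neg_mem' := by
        rintro _ ⟨a, ha, rfl⟩
        exact ⟨_, inv_mem ha, ng a ha⟩ }
  have hu : ∀ s ∈ A, s ≠ 0 → IsUnit s := by
    rintro _ ⟨a, ha, rfl⟩ k
    exact (un a ha fun e => k (e ▸ b0)).1
  have : Finite (AddMonoid.End X) := DFunLike.finite _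
  have jo := jordan A ⟨e, he, b1⟩ (by
    rintro _ ⟨a, ha, rfl⟩ _ ⟨b, hb', rfl⟩
    by_cases a1 : a = 1
    · rw [a1, b0, mul_zero]; exact zero_mem A
    · exact (un a ha a1).2 b hb') hu
  let S : Subring (AddMonoid.End X) :=
    { A with
      one_mem' := ⟨e, he, b1⟩
      mul_mem' := fun ha hb' => (jo _ ha _ hb').2 }
  have fS : IsField S := ⟨⟨1, 0, fun k => e1 (inj e he 1 (one_mem _) (by
      rw [b1, b0]; exact congrArg Subtype.val k))⟩, fun s t => Subtype.ext (jo _ s.2 _ t.2).1,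
    fun {s} k => Finite.surjective_of_injective (f := fun t : S => s * t) (fun t t' k' => Subtype.ext
      ((hu _ s.2 fun z => k (Subtype.ext z)).mul_left_cancel (congrArg Subtype.val k'))) 1⟩
  let _ := fS.toField
  have : ∀ s : S, ∃ a ∈ W.U 1, bar a = s := fun s => s.2
  choose x x1 x2 using this
  have hx : Fld W x := by
    refine ⟨fun s t => inj _ (x1 _) _ (mul_mem (x1 s) (x1 t)) ?_, fun s t k => Subtype.ext ?_,
      Set.ext fun a => ⟨?_, fun ha => ⟨⟨bar a, a, ha, rfl⟩, inj _ (x1 _) a ha (x2 _)⟩⟩,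
      fun s t u hu u' hu' k => (F.cl_eq c1 c2 (φ_mem (x1 _) hu') (φ_mem (x1 _) hu)).1 ?_⟩
    · rw [ad _ (x1 s) _ (x1 t), x2, x2, x2]; rfl
    · rw [← x2, k, x2]
    · rintro ⟨s, rfl⟩; exact x1 s
    · rw [inj _ (x1 1) e he ((x2 1).trans b1.symm)] at k
      rw [← hb _ (x1 s) u' hu', k, ← hb _ (x1 t) u hu, ← hb _ (x1 (s * t)) u hu, x2, x2, x2]
      rfl
  have : Finite (Shrink.{0} S) := .of_equiv _ (equivShrink.{0} S)
  exact ⟨Shrink.{0} S, inferInstance, Fintype.ofFinite _, _, hx.congr (Shrink.ringEquiv.{0} S)⟩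

end FS4
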