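import Mathlib
import Cfsg.Agent.Lib.FS4.F
import Cfsg.Agent.Lib.FS4.C
import Cfsg.Agent.Lib.FS4.A1
import Cfsg.Agent.Lib.FS4.A2
import Cfsg.Agent.Lib.FS4.Al
import Cfsg.Agent.Lib.Tits.NB
import Cfsg.Agent.Lib.Tits.GRp

set_option autoImplicit false

open scoped commutatorElement

namespace FS4

open Tits H63.St

variable {G G' : Type*} [Group G] [Group G'] {W : Win G} {W' : Win G'} {K : Type*} [Field K]

/-- The good orientation. -/
def Ori (W : Win G) : Prop := Big W ∧ (Fl W ∨ ¬ Fl' W)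

/-- The algebraic data of a coordinate system. -/
def Co.alg (C : Co W K) (h : Fl W ∨ ¬ Fl' W) : Alg K (W.U 4) where
  act := C.act
  T := C.T
  f := C.f
  Γ := C.Γ
  ν := C.ν
  d := C.d
  d_ne := C.d_ne
  Td := C.Td
  act_one := C.act_one
  act_zero := C.act_zero
  f_mul := C.f_mul
  f_mul' := C.f_mul'
  T_one := C.T_one
  T_mul := C.T_mul
  T_semi _ hu := C.T_semi hu
  f_Γ := C.f_Γ
  f_act_act := C.f_act_act
  act_add := C.act_add
  ν_add _ ha := C.ν_add ha
  ν_inj := C.ν_inj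
  ν_f _ ha := C.ν_f ha
  ν_T := C.mT 1 one_ne_zero
  ν_act _ ha := C.ν_act ha
  ν_fl k := C.mfl (C.fl_iff.2 k)
  alt := h.imp C.fl_iff.1 fun k => by
    rw [C.fl'_iff] at k
    push Not at k
    exact k

theorem Fld.real (h : Ori W) {x : K → G} (hx : Fld W x) :
    ∃ D x z y, NB.Real (K := K) W.U D x z y := by
  obtain ⟨C⟩ := hx.co h.1
  obtain ⟨D, e1, e2, e3, e4⟩ := (C.alg h.2).dat
  refine ⟨D, C.x, C.z, C.y, C.x_add, C.z_add, C.x_inj, C.z_inj, C.y_inj, C.x_rng, C.y_rng, C.z_rng,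
    fun t s => ?_, fun u v => ?_, fun t u => ?_⟩
  · rw [← e4]; exact C.c13 t s
  · rw [e2]; exact C.c24 u v
  · rw [e1, ← e3]; exact C.c14 t u

theorem Fld.card {x : K → G} (hx : Fld W x) : Nat.card K = Nat.card (W.U 1) := by
  rw [← Nat.card_range_of_injective hx.inj, hx.rng]; rfl

theorem exists_field [Finite G] (h : Ori W) :
    ∃ (K : Type) (_ : Field K) (_ : Fintype K), Fintype.card K = Nat.card (W.U 1) := by
  obtain ⟨K, _, _, x, hx⟩ := exists_fld h.1
  exact ⟨K, inferInstance, inferInstance, by rw [← hx.card, Nat.card_eq_fintype_card]⟩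

theorem real [Finite G] (h : Ori W) (K : Type) [Field K] [Fintype K]
    (hK : Fintype.card K = Nat.card (W.U 1)) : ∃ D x z y, NB.Real (K := K) W.U D x z y := by
  obtain ⟨K', _, _, x, hx⟩ := exists_fld h.1
  exact (hx.congr (FiniteField.ringEquivOfCardEq (K := K) (K' := K')
    (by rw [hK, ← hx.card, Nat.card_eq_fintype_card]))).real h

/-- The parameters in the good orientation. -/
def Par' (fl : Prop) (q t : ℕ) : Prop := (fl ∧ (t = q ∨ t = q ^ 2)) ∨ (¬ fl ∧ t ^ 2 = q ^ 3)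

theorem par [Finite G] (h : Ori W) : Par' (Fl W) (Nat.card (W.U 1)) (Nat.card (W.U 4)) := by
  obtain ⟨K, _, _, hK⟩ := exists_field h
  obtain ⟨D, x, z, y, hR⟩ := real h K hK
  have ns : ¬ NB.N2.Sp D 1 1 := fun k => h.1 fun b hb => by
    obtain ⟨u, rfl⟩ : b ∈ Set.range y := hR.y_rng ▸ hb
    obtain ⟨a, c, s, e⟩ := k u
    have := hR.c13 1 s
    rw [map_one, mul_one] at this
    rw [e, NB.N2.act_one, NB.N2.act_one, one_mul, one_mul, ← this]
    exact Subgroup.commutator_mem_commutator (show x 1 ∈ (W.U 1 : Set G) from hR.x_rng ▸ ⟨1, rfl⟩)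
      (show z s ∈ (W.U 3 : Set G) from hR.z_rng ▸ ⟨s, rfl⟩)
  rw [← hK, ← Nat.card_eq_fintype_card, Fl, hR.flag]
  by_cases g : ∀ s, D.γ s = 1
  · obtain ⟨u, hu⟩ := NB.N2.exists_π D
    exact Or.inl ⟨g, (NB.N2.O_cases g hu).imp And.right And.right⟩
  · refine Or.inr ⟨g, ?_⟩
    by_cases k : ∀ a, D.σ a = a
    · exact absurd (NB.N2.S_case D g k).2.1 ns
    · exact ((NB.N2.U_cases (not_forall.1 k)).resolve_left fun e => ns e.1).2

theorem two_le [Finite G] (W : Win G) (i : ZMod 8) : 2 ≤ Nat.card (W.U i) := by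
  obtain ⟨x, hx, x1⟩ := W.ne i
  have : Nontrivial (W.U i) := ⟨⟨x, hx⟩, 1, fun e => x1 (congrArg Subtype.val e)⟩
  exact Finite.one_lt_card

theorem Par'.iff {fl fl' : Prop} {q t : ℕ} (h : Par' fl q t) (h' : Par' fl' q t) (hq : 2 ≤ q) :
    fl ↔ fl' := by
  have k : (t = q ∨ t = q ^ 2) → t ^ 2 = q ^ 3 → False := by
    rintro (rfl | rfl) e
    · exact absurd (Nat.pow_right_injective hq e) (by decide)
    · rw [← pow_mul] at e
      exact absurd (Nat.pow_right_injective hq e) (by decide)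
  rcases h with ⟨a, b⟩ | ⟨a, b⟩ <;> rcases h' with ⟨c, d⟩ | ⟨c, d⟩
  exacts [iff_of_true a c, (k b d).elim, (k d b).elim, iff_of_false a c]

theorem Par'.swap {fl fl' : Prop} {q t : ℕ} (h : Par' fl q t) (h' : Par' fl' t q) (hq : 2 ≤ q)
    (ht : 2 ≤ t) : t = q := by
  have a : q ≤ t := by
    rcases h with ⟨-, rfl | rfl⟩ | ⟨-, e⟩
    · exact le_rfl
    · nlinarith
    · by_contra k
      have : t ^ 2 < q ^ 2 := Nat.pow_lt_pow_left (by omega) (by decide)
      have : q ^ 2 ≤ q ^ 3 := Nat.pow_le_pow_right (by omega) (by decide)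
      omega
  have b : t ≤ q := by
    rcases h' with ⟨-, rfl | rfl⟩ | ⟨-, e⟩
    · exact le_rfl
    · nlinarith
    · by_contra k
      have : q ^ 2 < t ^ 2 := Nat.pow_lt_pow_left (by omega) (by decide)
      have : t ^ 2 ≤ t ^ 3 := Nat.pow_le_pow_right (by omega) (by decide)
      omega
  omega

theorem posGr [Finite G] [Finite G'] (h : Ori W) (h' : Ori W')
    (h1 : Nat.card (W.U 1) = Nat.card (W'.U 1)) (h4 : Nat.card (W.U 4) = Nat.card (W'.U 4)) :
    ∃ Y, PosGr W.U W'.U Y := by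
  obtain ⟨K, _, _, hK⟩ := exists_field h
  obtain ⟨D, x, z, y, hR⟩ := real h K hK
  obtain ⟨D', x', z', y', hR'⟩ := real h' K (hK.trans h1)
  have p := par h
  have p' := par h'
  rw [← h1, ← h4] at p'
  obtain ⟨c, Γ, e⟩ := D.exists_iso D' h4 (by
    rw [← hR.flag, ← hR'.flag]; exact p.iff p' (two_le W 1))
  exact NB.posGr hR hR' e

end FS4
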